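/-
Preliminaries for the Shult-Gross theorem: arithmetic with `2 ^ m + 1 = p ^ j`, free permutations,
the index of the subgroup of elements acting as scalars on an irreducible module.
-/
import Cfsg.Agent.Lib.HallHigman.Extraspecial

set_option autoImplicit false

namespace Cfsg.Agent.Lib.ShultGross.Basic

open Module
open scoped commutatorElement

/-- If `2 ^ m + 1` divides `2 ^ e - 1` then `2 * m` divides `e`. -/
theorem two_mul_dvd_of_dvd {m e : ℕ} (hm : 1 ≤ m) (h : 2 ^ m + 1 ∣ 2 ^ e - 1) : 2 * m ∣ e := by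
  have hpos : 0 < 2 * m := by omega
  obtain ⟨s, f, hf, rfl⟩ : ∃ s f, f < 2 * m ∧ e = 2 * m * s + f :=
    ⟨e / (2 * m), e % (2 * m), Nat.mod_lt _ hpos, (Nat.div_add_mod e (2 * m)).symm⟩
  have hf0 : f = 0 := by
    by_contra hne
    -- in the integers
    have h1 : ((2 : ℤ) ^ m + 1) ∣ (2 : ℤ) ^ (2 * m * s + f) - 1 := by
      have h2 : ((2 ^ m + 1 : ℕ) : ℤ) ∣ ((2 ^ (2 * m * s + f) - 1 : ℕ) : ℤ) := Int.natCast_dvd_natCast.mpr h
      have h3 : ((2 ^ (2 * m * s + f) - 1 : ℕ) : ℤ) = (2 : ℤ) ^ (2 * m * s + f) - 1 := by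
        rw [Nat.cast_sub Nat.one_le_two_pow]
        push_cast
        rfl
      rw [h3] at h2
      exact_mod_cast h2
    have h2 : ((2 : ℤ) ^ m + 1) ∣ (2 : ℤ) ^ (2 * m * s) - 1 := by
      have h3 : ((2 : ℤ) ^ m + 1) ∣ ((2 : ℤ) ^ (2 * m)) - 1 := by
        refine ⟨2 ^ m - 1, ?_⟩
        rw [mul_comm 2 m, pow_mul]
        ring
      have h4 : ((2 : ℤ) ^ (2 * m)) - 1 ∣ ((2 : ℤ) ^ (2 * m)) ^ s - 1 := sub_one_dvd_pow_sub_one _ _
      rw [pow_mul]
      exact h3.trans h4
    have h3 : ((2 : ℤ) ^ m + 1) ∣ (2 : ℤ) ^ f - 1 := by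
      have e1 : (2 : ℤ) ^ (2 * m * s + f) - 1 = 2 ^ f * (2 ^ (2 * m * s) - 1) + (2 ^ f - 1) := by
        rw [pow_add]
        ring
      rw [e1] at h1
      exact (dvd_add_right (Dvd.dvd.mul_left h2 _)).mp h1
    by_cases hfm : f < m
    · have h4 : (2 : ℤ) ^ f < 2 ^ m := pow_lt_pow_right₀ (by norm_num) hfm
      have h5 : (0 : ℤ) < 2 ^ f - 1 := by
        have : (2 : ℤ) ≤ 2 ^ f := by
          calc (2 : ℤ) = 2 ^ 1 := by norm_num
            _ ≤ 2 ^ f := pow_le_pow_right₀ (by norm_num) (by omega)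
        linarith
      have h6 := Int.le_of_dvd h5 h3
      linarith
    · -- `f = m + g`
      obtain ⟨g, rfl⟩ := Nat.exists_eq_add_of_le (not_lt.mp hfm)
      have hgm : g < m := by omega
      have h4 : ((2 : ℤ) ^ m + 1) ∣ (2 : ℤ) ^ g + 1 := by
        have e1 : (2 : ℤ) ^ (m + g) - 1 = (2 ^ m + 1) * 2 ^ g - (2 ^ g + 1) := by
          rw [pow_add]
          ring
        rw [e1] at h3
        exact (dvd_sub_right (Dvd.intro _ rfl)).mp h3
      have h5 : (2 : ℤ) ^ g < 2 ^ m := pow_lt_pow_right₀ (by norm_num) hgm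
      have h6 : (0 : ℤ) < 2 ^ g + 1 := by positivity
      have h7 := Int.le_of_dvd h6 h4
      linarith
  subst hf0
  exact Dvd.intro _ rfl

/-- The arithmetic for `2 ^ m + 1 = p ^ j`: the order of `2` modulo `p ^ (t + j)` is at least `2 * m * p ^ t`. -/
theorem le_of_dvd_two_pow_sub_one {p m j t e : ℕ} (hp : p.Prime) (hp2 : p ≠ 2) (hm : 1 ≤ m)
    (hj : 2 ^ m + 1 = p ^ j) (he : 0 < e) (hdvd : p ^ (t + j) ∣ 2 ^ e - 1) : 2 * m * p ^ t ≤ e := by
  haveI : Fact p.Prime := ⟨hp⟩
  have hodd : Odd p := hp.odd_of_ne_two hp2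
  have hd1 : 2 ^ m + 1 ∣ 2 ^ e - 1 := by
    rw [hj]
    exact (Nat.pow_dvd_pow p (Nat.le_add_left j t)).trans hdvd
  obtain ⟨s, rfl⟩ := two_mul_dvd_of_dvd hm hd1
  have hs : s ≠ 0 := by
    rintro rfl
    simp at he
  have hj0 : j ≠ 0 := by
    rintro rfl
    have : 2 ^ m > 0 := by positivity
    rw [pow_zero] at hj
    omega
  have hpdvd : p ∣ 2 ^ m + 1 := by
    rw [hj]
    exact dvd_pow_self p hj0
  have hnd : ¬ p ∣ 2 ^ m - 1 := by
    intro h
    have h1 : p ∣ (2 ^ m + 1) - (2 ^ m - 1) := Nat.dvd_sub hpdvd h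
    have h2 : (2 ^ m + 1) - (2 ^ m - 1) = 2 := by
      have : 1 ≤ 2 ^ m := Nat.one_le_two_pow
      omega
    rw [h2] at h1
    exact hp2 ((Nat.prime_dvd_prime_iff_eq hp Nat.prime_two).mp h1)
  -- `y = 2 ^ (2 * m)`
  set y := 2 ^ (2 * m) with hy
  have hy1 : y - 1 = (2 ^ m - 1) * (2 ^ m + 1) := by
    have h1 : y = 2 ^ m * 2 ^ m := by
      rw [hy, two_mul, pow_add]
    have h2 : 1 ≤ 2 ^ m := Nat.one_le_two_pow
    obtain ⟨w, hw⟩ := Nat.exists_eq_add_of_le h2
    rw [h1, hw]
    have : 1 + w - 1 = w := by omega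
    rw [this]
    have : (1 + w) * (1 + w) - 1 = w * (1 + w + 1) := by
      have e : (1 + w) * (1 + w) = w * (1 + w + 1) + 1 := by ring
      omega
    exact this
  have hylt : 1 < y := by
    rw [hy]
    exact Nat.one_lt_two_pow (by omega)
  have hpy : p ∣ y - 1 := by
    rw [hy1]
    exact Dvd.dvd.mul_left hpdvd _
  have hpny : ¬ p ∣ y := by
    intro h
    have := (Nat.Prime.dvd_of_dvd_pow hp h)
    exact hp2 ((Nat.prime_dvd_prime_iff_eq hp Nat.prime_two).mp this)
  have hval := padicValNat.pow_sub_pow (p := p) hodd hylt hpy hpny hs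
  rw [one_pow] at hval
  have hval2 : padicValNat p (y - 1) = j := by
    rw [hy1, padicValNat.mul _ (by positivity), hj, padicValNat.prime_pow,
      padicValNat.eq_zero_of_not_dvd hnd, zero_add]
    have : 1 < 2 ^ m := Nat.one_lt_two_pow (by omega)
    omega
  rw [hval2] at hval
  have hne0 : y ^ s - 1 ≠ 0 := by
    have : 1 < y ^ s := Nat.one_lt_pow hs hylt
    omega
  have hle : t + j ≤ padicValNat p (y ^ s - 1) := by
    refine (padicValNat_dvd_iff_le hne0).mp ?_
    rw [hy, ← pow_mul]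
    exact hdvd
  have hts : t ≤ padicValNat p s := by omega
  have hdvds : p ^ t ∣ s := (padicValNat_dvd_iff_le hs).mpr hts
  have h1 := Nat.le_of_dvd (Nat.pos_of_ne_zero hs) hdvds
  exact Nat.mul_le_mul_left _ h1

/-- A permutation all of whose nontrivial powers (below `N`) are fixed point free on an invariant
finite set: `N` divides its size. -/
theorem dvd_card_of_free {α : Type*} [DecidableEq α] (π : Equiv.Perm α) (N : ℕ) (hN : 0 < N) (hπ : π ^ N = 1) :
    ∀ (k : ℕ) (s : Finset α), s.card = k → (∀ x ∈ s, π x ∈ s) → (∀ x ∈ s, ∀ k, 0 < k → k < N → (π ^ k) x ≠ x) →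
      N ∣ s.card := by
  intro k
  induction k using Nat.strong_induction_on with
  | _ k ih =>
    intro s hs hinv hfree
    by_cases he : s = ∅
    · subst he
      simp
    obtain ⟨x₀, hx₀⟩ := Finset.nonempty_iff_ne_empty.mpr he
    have hpow : ∀ k : ℕ, (π ^ k) x₀ ∈ s := by
      intro k
      induction k with
      | zero => simpa using hx₀
      | succ k ih' =>
        rw [pow_succ', Equiv.Perm.mul_apply]
        exact hinv _ ih'
    let O : Finset α := (Finset.range N).image (fun k => (π ^ k) x₀)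
    have hinj : Set.InjOn (fun k => (π ^ k) x₀) (Finset.range N : Set ℕ) := by
      have key : ∀ a b : ℕ, a < b → b < N → (π ^ a) x₀ ≠ (π ^ b) x₀ := by
        intro a b hab hb h
        apply hfree x₀ hx₀ (b - a) (by omega) (by omega)
        have h1 : b = (b - a) + a := by omega
        rw [h1, pow_add, Equiv.Perm.mul_apply] at h
        have h2 := (π ^ a).injective
        have h3 : (π ^ (b - a)) ((π ^ a) x₀) = (π ^ a) ((π ^ (b - a)) x₀) := by
          rw [← Equiv.Perm.mul_apply, ← pow_add, add_comm, pow_add, Equiv.Perm.mul_apply]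
        rw [h3] at h
        exact (h2 h).symm
      intro a ha b hb h
      have ha' : a < N := by simpa using ha
      have hb' : b < N := by simpa using hb
      rcases lt_trichotomy a b with hlt | heq | hlt
      · exact absurd h (key a b hlt hb')
      · exact heq
      · exact absurd h.symm (key b a hlt ha')
    have hO : O.card = N := by
      rw [Finset.card_image_of_injOn hinj, Finset.card_range]
    have hOs : O ⊆ s := by
      intro y hy
      obtain ⟨k, -, rfl⟩ := Finset.mem_image.mp hy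
      exact hpow k
    have hOne : O.Nonempty := by
      rw [← Finset.card_pos, hO]
      exact hN
    have hsub : (s \ O).card = s.card - N := by
      rw [Finset.card_sdiff_of_subset hOs, hO]
    have hle : N ≤ s.card := by
      rw [← hO]
      exact Finset.card_le_card hOs
    have h1 := ih (s \ O).card (by
      rw [hsub, hs]
      have : s.card = k := hs
      omega) (s \ O) rfl (by
      intro x hx
      obtain ⟨hxs, hxO⟩ := Finset.mem_sdiff.mp hx
      refine Finset.mem_sdiff.mpr ⟨hinv x hxs, fun h => hxO ?_⟩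
      obtain ⟨k, hk, hke⟩ := Finset.mem_image.mp h
      have hk' : k < N := by simpa using hk
      rcases Nat.eq_zero_or_pos k with rfl | hk0
      · -- `π x = x₀`
        refine Finset.mem_image.mpr ⟨N - 1, Finset.mem_range.mpr (by omega), ?_⟩
        have h2 : x₀ = π x := by simpa using hke
        change (π ^ (N - 1)) x₀ = x
        rw [h2, ← Equiv.Perm.mul_apply, ← pow_succ]
        have : N - 1 + 1 = N := by omega
        rw [this, hπ]
        rfl
      · refine Finset.mem_image.mpr ⟨k - 1, Finset.mem_range.mpr (by omega), ?_⟩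
        change (π ^ (k - 1)) x₀ = x
        apply π.injective
        have hke' : (π ^ k) x₀ = π x := hke
        rw [← hke', ← Equiv.Perm.mul_apply, ← pow_succ']
        have : k - 1 + 1 = k := by omega
        rw [this]) (fun x hx => hfree x (Finset.mem_sdiff.mp hx).1)
    rw [hsub] at h1
    have h2 := (Nat.dvd_sub_iff_left hle (dvd_refl N)).mp h1
    exact h2

/-- `|Q₁| ≡ 1` modulo `N` for a free action of a cyclic group of order `N` by automorphisms, off the
identity. -/
theorem dvd_card_sub_one_of_free {Q : Type*} [Group Q] [Finite Q] (θ : MulAut Q) (N : ℕ) (hN : 0 < N)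
    (hθ : θ ^ N = 1) (hfree : ∀ k, 0 < k → k < N → ∀ z : Q, (θ ^ k) z = z → z = 1) : N ∣ Nat.card Q - 1 := by
  classical
  letI : Fintype Q := Fintype.ofFinite Q
  let s : Finset Q := Finset.univ.erase 1
  let π : Equiv.Perm Q := θ.toEquiv
  have hπpow : ∀ (k : ℕ) (z : Q), (π ^ k) z = (θ ^ k) z := by
    intro k
    induction k with
    | zero => intro z; rfl
    | succ k ih =>
      intro z
      rw [pow_succ', pow_succ', Equiv.Perm.mul_apply, MulAut.mul_apply, ih]
      rfl
  have hπN : π ^ N = 1 := by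
    ext z
    rw [hπpow, hθ]
    rfl
  have h1 := dvd_card_of_free π N hN hπN s.card s rfl (by
    intro x hx
    have hx1 : x ≠ 1 := (Finset.mem_erase.mp hx).1
    refine Finset.mem_erase.mpr ⟨?_, Finset.mem_univ _⟩
    intro h
    apply hx1
    have h2 : θ x = 1 := h
    exact (map_eq_one_iff θ θ.injective).mp h2) (by
    intro x hx k hk hkN h
    have hx1 : x ≠ 1 := (Finset.mem_erase.mp hx).1
    rw [hπpow] at h
    exact hx1 (hfree k hk hkN x h))
  have h2 : s.card = Nat.card Q - 1 := by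
    rw [Finset.card_erase_of_mem (Finset.mem_univ _), Finset.card_univ, Nat.card_eq_fintype_card]
  rwa [h2] at h1

section scalar

variable {K U Q : Type*} [Field K] [AddCommGroup U] [Module K U] [Group Q]

/-- Elements acting as scalars. -/
def scalarSub (σ : Q →* End K U) : Subgroup Q where
  carrier := {g | ∃ c : K, σ g = c • 1}
  mul_mem' := by
    rintro a b ⟨c, hc⟩ ⟨d, hd⟩
    refine ⟨c * d, ?_⟩
    rw [map_mul, hc, hd, smul_mul_smul_comm, one_mul]
  one_mem' := ⟨1, by simp⟩
  inv_mem' := by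
    rintro a ⟨c, hc⟩
    have h1 : σ a * σ a⁻¹ = 1 := by rw [← map_mul, mul_inv_cancel, map_one]
    by_cases hc0 : c = 0
    · -- then `U` is trivial
      rw [hc, hc0, zero_smul, zero_mul] at h1
      refine ⟨0, ?_⟩
      have h2 : σ a⁻¹ = σ a⁻¹ * 1 := (mul_one _).symm
      rw [h2, ← h1]
      simp
    · refine ⟨c⁻¹, ?_⟩
      rw [hc, smul_mul_assoc, one_mul] at h1
      have h2 : σ a⁻¹ = c⁻¹ • (c • σ a⁻¹) := by
        rw [smul_smul, inv_mul_cancel₀ hc0, one_smul]
      rw [h2, h1]

theorem mem_scalarSub {σ : Q →* End K U} {g : Q} : g ∈ scalarSub σ ↔ ∃ c : K, σ g = c • 1 := Iff.rfl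

instance scalarSub_normal (σ : Q →* End K U) : (scalarSub σ).Normal := by
  constructor
  rintro a ⟨c, hc⟩ g
  refine ⟨c, ?_⟩
  rw [map_mul, map_mul, hc, mul_smul_comm, smul_mul_assoc, mul_one, ← map_mul, mul_inv_cancel, map_one]

variable [FiniteDimensional K U] [Finite Q]

/-- Upper bound for `|Q : scalars|`, when all commutators act as scalars. -/
theorem index_scalarSub_le [IsAlgClosed K] [Nontrivial U] (σ : Q →* End K U)
    (hirr : ∀ W : Submodule K U, (∀ g, ∀ w ∈ W, σ g w ∈ W) → W = ⊥ ∨ W = ⊤)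
    (hD : (finrank K U : K) ≠ 0) (hc : ∀ g h : Q, ∃ c : K, σ ⁅g, h⁆ = c • 1) :
    (scalarSub σ).index ≤ finrank K U ^ 2 := by
  classical
  letI : Fintype Q := Fintype.ofFinite Q
  let Z := scalarSub σ
  letI : Fintype (Q ⧸ Z) := Fintype.ofFinite _
  let T : (Q ⧸ Z) → Q := Quotient.out
  have hT : ∀ t : Q ⧸ Z, ((T t : Q) : Q ⧸ Z) = t := fun t => QuotientGroup.out_eq' t
  have h1 : finrank K (End K U) = (finrank K U) ^ 2 := by
    rw [Module.finrank_linearMap, sq]
  have htr : ∀ g : Q, g ∉ Z → LinearMap.trace K U (σ g) = 0 := by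
    intro g hg
    have hex : ∃ h : Q, σ g * σ h ≠ σ h * σ g := by
      by_contra hall
      push Not at hall
      apply hg
      exact Cfsg.Agent.Lib.HallHigman.Extraspecial.schur σ hirr (σ g) hall
    obtain ⟨h, hh⟩ := hex
    obtain ⟨c, hc'⟩ := hc h g
    have hc1 : c ≠ 1 := by
      intro h1
      apply hh
      rw [h1, one_smul] at hc'
      have e : σ h * σ g * σ h⁻¹ * σ g⁻¹ = 1 := by
        rw [← map_mul, ← map_mul, ← map_mul]
        exact hc'
      have h2 : σ h⁻¹ * σ h = 1 := by rw [← map_mul, inv_mul_cancel, map_one]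
      have h3 : σ g⁻¹ * σ g = 1 := by rw [← map_mul, inv_mul_cancel, map_one]
      calc σ g * σ h = 1 * (σ g * σ h) := (one_mul _).symm
        _ = (σ h * σ g * σ h⁻¹ * σ g⁻¹) * (σ g * σ h) := by rw [e]
        _ = σ h * σ g * σ h⁻¹ * (σ g⁻¹ * σ g) * σ h := by noncomm_ring
        _ = σ h * σ g * (σ h⁻¹ * σ h) := by rw [h3]; noncomm_ring
        _ = σ h * σ g := by rw [h2, mul_one]
    have e1 : σ h * σ g * σ h⁻¹ = c • σ g := by
      have h2 : h * g * h⁻¹ = ⁅h, g⁆ * g := by
        rw [commutatorElement_def]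
        group
      rw [← map_mul, ← map_mul, h2, map_mul, hc', smul_mul_assoc, one_mul]
    have e2 : LinearMap.trace K U (σ h * σ g * σ h⁻¹) = LinearMap.trace K U (σ g) := by
      rw [LinearMap.trace_mul_comm, ← mul_assoc, ← map_mul]
      simp
    rw [e1, map_smul, smul_eq_mul] at e2
    have e3 : (c - 1) * LinearMap.trace K U (σ g) = 0 := by
      linear_combination e2
    exact (mul_eq_zero.mp e3).resolve_left (sub_ne_zero.mpr hc1)
  have hli : LinearIndependent K (fun t : Q ⧸ Z => σ (T t)) := by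
    rw [Fintype.linearIndependent_iff]
    intro a ha t₀
    have h2 : ∑ t, a t • (σ (T t) * σ (T t₀)⁻¹) = 0 := by
      have := congrArg (fun S : End K U => S * σ (T t₀)⁻¹) ha
      simpa [Finset.sum_mul, smul_mul_assoc] using this
    have h3 := congrArg (LinearMap.trace K U) h2
    rw [map_sum, map_zero] at h3
    have h4 : ∀ t ∈ Finset.univ, t ≠ t₀ →
        LinearMap.trace K U (a t • (σ (T t) * σ (T t₀)⁻¹)) = 0 := by
      intro t _ ht
      rw [map_smul, ← map_mul, htr, smul_zero]
      intro hz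
      apply ht
      rw [← hT t, ← hT t₀]
      apply (QuotientGroup.eq (s := Z)).mpr
      have h5 : (T t)⁻¹ * T t₀ = (T t)⁻¹ * (T t * (T t₀)⁻¹)⁻¹ * T t := by group
      rw [h5]
      exact Subgroup.Normal.conj_mem' inferInstance _ (Subgroup.inv_mem _ hz) _
    rw [Finset.sum_eq_single_of_mem t₀ (Finset.mem_univ _) h4] at h3
    rw [map_smul, ← map_mul, mul_inv_cancel, map_one, LinearMap.trace_one, smul_eq_mul] at h3
    exact (mul_eq_zero.mp h3).resolve_right hD
  have h2 := hli.fintype_card_le_finrank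
  rw [h1, ← Nat.card_eq_fintype_card] at h2
  exact h2

end scalar

/-- Product formula for two subgroups, one normal. -/
theorem index_inf_mul_index_sup {G : Type*} [Group G] (A B : Subgroup G) [A.Normal] :
    (A ⊓ B).index * (B ⊔ A).index = A.index * B.index := by
  have h1 : (A ⊓ B).relIndex B * B.index = (A ⊓ B).index := Subgroup.relIndex_mul_index inf_le_right
  have h2 : A.relIndex (B ⊔ A) * (B ⊔ A).index = A.index := Subgroup.relIndex_mul_index le_sup_right
  rw [Subgroup.relIndex_sup_right] at h2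
  rw [Subgroup.inf_relIndex_right] at h1
  rw [← h1, ← h2]
  ring

end Cfsg.Agent.Lib.ShultGross.Basic
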