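/-
The key theorem for the Shult-Gross theorem: let `a` be a `p`-element, `p` odd, acting without fixed vectors
on a module and without fixed points on an `r`-group `R` acting faithfully on the module
(characteristic prime to `p r`). Then the subgroup of order `p` of `⟨a⟩` centralizes `R`.
-/
import Cfsg.Agent.Lib.ShultGross.Basic

set_option autoImplicit false
set_option linter.style.haveILetI false
set_option linter.unusedSectionVars false

namespace Cfsg.Agent.Lib.ShultGross.Core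

open Module Cfsg.Agent.Lib.HallHigman.Irr Cfsg.Agent.Lib.HallHigman.Core
  Cfsg.Agent.Lib.HallHigman.FrobFree Cfsg.Agent.Lib.HallHigman.Critical
  Cfsg.Agent.Lib.HallHigman.Jordan Cfsg.Agent.Lib.HallHigman.Numeric
  Cfsg.Agent.Lib.HallHigman.DegPower Cfsg.Agent.Lib.HallHigman.Clifford
  Cfsg.Agent.Lib.HallHigman.Semisimple Cfsg.Agent.Lib.ShultGross.Basic
open scoped commutatorElement

universe u v w

section crit

variable {K : Type u} [Field K] {V : Type v} [AddCommGroup V] [Module K V] {H : Type w} [Group H]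

/-- The stabilizer of the isomorphism type of `U₁` in `⟨a⟩`. -/
theorem exists_stab [IsAlgClosed K] [Finite H] [FiniteDimensional K V] (ρ : H →* End K V) (Q : Subgroup H) (a : H)
    (haQ : a ∈ Subgroup.normalizer (Q : Set H)) {U₁ : Submodule K V} (hU₁ : IsIrr ρ Q U₁) :
    ∃ (d : ℕ) (U : Submodule K V), 0 < d ∧ d ∣ orderOf a ∧ IsIrr ρ Q U ∧ (∀ u ∈ U, ρ (a ^ d) u ∈ U) ∧
      HomNZ ρ Q U₁ U ∧ iSupIndep (fun i : Fin d => tw ρ (a ^ (i : ℕ)) U) := by
  classical
  obtain ⟨N, hNdef⟩ : ∃ N, N = orderOf a := ⟨_, rfl⟩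
  have hN0 : 0 < N := by
    rw [hNdef]
    exact orderOf_pos a
  have haN : a ^ N = 1 := by
    rw [hNdef]
    exact pow_orderOf_eq_one a
  have hxn : ∀ i : ℕ, a ^ i ∈ Subgroup.normalizer (Q : Set H) := fun i => Subgroup.pow_mem _ haQ i
  let S : ℕ → Prop := fun i => HomNZ ρ Q (tw ρ (a ^ i) U₁) U₁
  have hrefl : ∀ {W : Submodule K V}, W ≠ ⊥ → HomNZ ρ Q W W := by
    intro W hW
    obtain ⟨a, ha, ha0⟩ := Submodule.exists_mem_ne_zero_of_ne_bot hW
    exact ⟨1, fun a ha => ha, fun g _ a _ => rfl, a, ha, ha0⟩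
  have hS0 : S 0 := by
    change HomNZ ρ Q (tw ρ (a ^ 0) U₁) U₁
    rw [pow_zero, tw_one]
    exact hrefl hU₁.ne_bot
  have hSadd : ∀ i j, S i → S j → S (i + j) := by
    intro i j hi hj
    change HomNZ ρ Q (tw ρ (a ^ (i + j)) U₁) U₁
    rw [pow_add, tw_mul]
    exact HomNZ.trans (hU₁.tw (hxn i)) (hj.tw (hxn i)) hi
  have hSmul : ∀ i k, S i → S (k * i) := by
    intro i k hi
    induction k with
    | zero => simpa using hS0
    | succ k ih =>
      rw [add_mul, one_mul]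
      exact hSadd _ _ ih hi
  have hSper : ∀ e w, S (e + N * w) → S e := by
    intro e w h
    change HomNZ ρ Q (tw ρ (a ^ (e + N * w)) U₁) U₁ at h
    rwa [pow_add, pow_mul, haN, one_pow, mul_one] at h
  have hSN : S N := by
    change HomNZ ρ Q (tw ρ (a ^ N) U₁) U₁
    rw [haN, tw_one]
    exact hrefl hU₁.ne_bot
  have hSsub : ∀ i s, S i → S (i + s) → S s := by
    intro i s hi his
    have h1 := hSadd _ _ (hSmul i (N - 1) hi) his
    have e : (N - 1) * i + (i + s) = s + N * i := by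
      obtain ⟨M, hM⟩ : ∃ M, N = M + 1 := ⟨N - 1, by omega⟩
      rw [hM]
      simp only [Nat.add_sub_cancel]
      ring
    rw [e] at h1
    exact hSper _ _ h1
  have hex : ∃ i, 0 < i ∧ S i := ⟨N, hN0, hSN⟩
  let d := Nat.find hex
  have hd : 0 < d ∧ S d := Nat.find_spec hex
  have hmin : ∀ i, i < d → ¬ (0 < i ∧ S i) := fun i hi => Nat.find_min hex hi
  have hSd : ∀ e, S e → d ∣ e := by
    intro e he
    have h1 := hSmul d (e / d) hd.2
    have h2 : e / d * d + e % d = e := by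
      rw [mul_comm]
      exact Nat.div_add_mod e d
    have h3 : S (e / d * d + e % d) := by
      rw [h2]
      exact he
    have h4 := hSsub _ _ h1 h3
    by_contra hnd
    apply hmin (e % d) (Nat.mod_lt _ hd.1)
    refine ⟨?_, h4⟩
    exact Nat.pos_of_ne_zero (fun h => hnd (Nat.dvd_of_mod_eq_zero h))
  have hdN : d ∣ N := hSd N hSN
  obtain ⟨U, hU, hbU, hU₁U⟩ := exists_invariant_irr (hxn d) hU₁ hd.2
  refine ⟨d, U, hd.1, hNdef ▸ hdN, hU, hbU, hU₁U, ?_⟩
  have hUU₁ := hU₁U.symm hU₁ hU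
  apply iSupIndep_of_no_hom (ρ := ρ) (Q := Q)
  · intro i
    exact hU.tw (hxn _)
  · rintro i j hij hhom
    have h1 : HomNZ ρ Q (tw ρ (a ^ (i : ℕ)) U₁) (tw ρ (a ^ (i : ℕ)) U) := hU₁U.tw (hxn _)
    have h2 : HomNZ ρ Q (tw ρ (a ^ (j : ℕ)) U) (tw ρ (a ^ (j : ℕ)) U₁) := hUU₁.tw (hxn _)
    have h3 : HomNZ ρ Q (tw ρ (a ^ (i : ℕ)) U₁) (tw ρ (a ^ (j : ℕ)) U₁) :=
      HomNZ.trans (hU.tw (hxn _)) h1 (HomNZ.trans (hU.tw (hxn _)) hhom h2)
    have hjN : (j : ℕ) ≤ N := by
      have h4 := Nat.le_of_dvd hN0 hdN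
      have h5 := j.2
      omega
    have h4 := h3.tw (hxn (N - j))
    rw [← tw_mul, ← tw_mul, ← pow_add, ← pow_add, Nat.sub_add_cancel hjN, haN, tw_one] at h4
    have h5 : S (N - j + i) := h4
    have h6 := hSd _ h5
    have hne : (i : ℕ) ≠ j := fun h => hij (Fin.ext h)
    have hi := i.2
    have hj := j.2
    rcases lt_or_gt_of_ne hne with hlt | hlt
    · -- `N - j + i = N - (j - i)`
      have e : N - j + i = N - (j - i) := by omega
      rw [e] at h6
      have h7 : d ∣ N - (N - (j - i)) := Nat.dvd_sub hdN h6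
      have e2 : N - (N - (j - i)) = (j : ℕ) - i := by omega
      rw [e2] at h7
      have := Nat.le_of_dvd (by omega) h7
      change _ ≤ _ at this
      omega
    · have e : N - j + i = N + (i - j) := by omega
      rw [e] at h6
      have h7 := (Nat.dvd_add_right hdN).mp h6
      have := Nat.le_of_dvd (by omega) h7
      omega

/-- A vector fixed by `a ^ d` gives a vector fixed by `a`. -/
theorem free_of_indep (ρ : H →* End K V) (a : H) (d : ℕ) (hd : 0 < d) {U : Submodule K V}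
    (hind : iSupIndep (fun i : Fin d => tw ρ (a ^ (i : ℕ)) U)) (hfree : ∀ v, ρ a v = v → v = 0) :
    ∀ u ∈ U, ρ (a ^ d) u = u → u = 0 := by
  intro u hu hb
  have hfixed : (ρ a - 1) * ∑ i ∈ Finset.range d, (ρ a) ^ i = (ρ a) ^ d - 1 := mul_geom_sum _ _
  have h1 := congrArg (fun f : End K V => f u) hfixed
  simp only [Module.End.mul_apply, LinearMap.sub_apply, Module.End.one_apply] at h1
  have h1' : ((ρ a) ^ d) u - u = 0 := by
    rw [← map_pow, hb, sub_self]
  rw [h1', sub_eq_zero] at h1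
  have h2 := hfree _ h1
  rw [LinearMap.sum_apply, Finset.sum_range] at h2
  have h3 := eq_zero_of_sum_eq_zero hind (fun i : Fin d => (ρ a ^ (i : ℕ)) u)
    (fun i => by
      rw [← map_pow]
      exact apply_mem_tw hu) h2 ⟨0, hd⟩
  simpa using h3

/-- Elements of `Q` acting as a scalar on `U`. -/
def scal (ρ : H →* End K V) (Q : Subgroup H) (U : Submodule K V) : Subgroup Q where
  carrier := {g | ∃ c : K, ∀ u ∈ U, ρ g.1 u = c • u}
  mul_mem' := by
    rintro a b ⟨c, hc⟩ ⟨d, hd⟩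
    refine ⟨c * d, fun u hu => ?_⟩
    rw [Subgroup.coe_mul, map_mul, Module.End.mul_apply, hd u hu, map_smul, hc u hu, smul_smul, mul_comm]
  one_mem' := ⟨1, fun u _ => by simp⟩
  inv_mem' := by
    rintro a ⟨c, hc⟩
    refine ⟨c⁻¹, fun u hu => ?_⟩
    by_cases hc0 : c = 0
    · have h1 := hc u hu
      rw [hc0, zero_smul] at h1
      have h2 : u = 0 := by
        rw [← rho_inv_apply ρ a.1 u, h1, map_zero]
      rw [h2]
      simp
    · have h1 := hc u hu
      have h2 : u = c⁻¹ • ρ a.1 u := by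
        rw [h1, smul_smul, inv_mul_cancel₀ hc0, one_smul]
      have h3 : ρ (a⁻¹).1 u = c⁻¹ • ρ (a⁻¹).1 (ρ a.1 u) := by
        conv_lhs => rw [h2, map_smul]
      rw [h3, Subgroup.coe_inv, rho_inv_apply]

theorem mem_scal {ρ : H →* End K V} {Q : Subgroup H} {U : Submodule K V} {g : Q} :
    g ∈ scal ρ Q U ↔ ∃ c : K, ∀ u ∈ U, ρ g.1 u = c • u := Iff.rfl

theorem scal_eq {ρ : H →* End K V} {Q : Subgroup H} {U : Submodule K V} (hU : IsInv ρ Q U) :
    scal ρ Q U = scalarSub (resQ ρ Q U hU) := by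
  ext g
  rw [mem_scal, mem_scalarSub]
  constructor
  · rintro ⟨c, hc⟩
    refine ⟨c, ?_⟩
    ext v
    rw [resQ_apply, hc v.1 v.2]
    rfl
  · rintro ⟨c, hc⟩
    refine ⟨c, fun u hu => ?_⟩
    have h1 := congrArg (fun f : End K U => ((f ⟨u, hu⟩ : U) : V)) hc
    simpa [resQ_apply] using h1

theorem scal_normal {ρ : H →* End K V} {Q : Subgroup H} {U : Submodule K V} (hU : IsInv ρ Q U) :
    (scal ρ Q U).Normal := by
  rw [scal_eq hU]
  infer_instance

/-- A central element acts as a scalar on an irreducible. -/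
theorem central_mem_scal [IsAlgClosed K] [FiniteDimensional K V] {ρ : H →* End K V} {Q : Subgroup H}
    {U : Submodule K V} (hU : IsIrr ρ Q U) (g : Q) (hg : ∀ h : Q, g * h = h * g) : g ∈ scal ρ Q U := by
  haveI : Nontrivial U := Submodule.nontrivial_iff_ne_bot.mpr hU.ne_bot
  rw [scal_eq hU.inv, mem_scalarSub]
  refine Cfsg.Agent.Lib.HallHigman.Extraspecial.schur (resQ ρ Q U hU.inv) (resQ_irr hU) _ (fun h => ?_)
  rw [← map_mul, ← map_mul, hg h]

/-- The index of the scalars. -/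
theorem index_scal_le [IsAlgClosed K] [Finite H] [FiniteDimensional K V] {r : ℕ} [Fact r.Prime]
    (hrK : (r : K) ≠ 0) {ρ : H →* End K V} {Q : Subgroup H} (hQ : IsPGroup r Q) {U : Submodule K V}
    (hU : IsIrr ρ Q U) (hc : ∀ g h : Q, ⁅g, h⁆ ∈ scal ρ Q U) : (scal ρ Q U).index ≤ finrank K U ^ 2 := by
  haveI : Nontrivial U := Submodule.nontrivial_iff_ne_bot.mpr hU.ne_bot
  obtain ⟨m, hm⟩ := finrank_eq_pow hrK (Nat.card Q) Q le_rfl hQ U (resQ ρ Q U hU.inv) (resQ_irr hU)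
  rw [scal_eq hU.inv]
  refine index_scalarSub_le _ (resQ_irr hU) ?_ ?_
  · rw [hm]
    push_cast
    exact pow_ne_zero _ hrK
  · intro g h
    have := hc g h
    rw [scal_eq hU.inv] at this
    exact this

/-- A conjugation preserving a subgroup of a finite group normalizes it. -/
theorem mem_normalizer_of_conj_mem [Finite H] {S : Subgroup H} {a : H} (h : ∀ g ∈ S, a * g * a⁻¹ ∈ S) :
    a ∈ Subgroup.normalizer (S : Set H) := by
  rw [Subgroup.mem_normalizer_iff]
  intro x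
  refine ⟨h x, fun hx => ?_⟩
  let f : S → S := fun g => ⟨a * g.1 * a⁻¹, h g.1 g.2⟩
  have hf : Function.Injective f := by
    intro g₁ g₂ h12
    have h1 : a * g₁.1 * a⁻¹ = a * g₂.1 * a⁻¹ := congrArg Subtype.val h12
    exact Subtype.ext (mul_left_cancel (mul_right_cancel h1))
  obtain ⟨s, hs⟩ := (Finite.injective_iff_surjective.mp hf) ⟨_, hx⟩
  have h1 : a * s.1 * a⁻¹ = a * x * a⁻¹ := congrArg Subtype.val hs
  have h2 : s.1 = x := mul_left_cancel (mul_right_cancel h1)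
  rw [← h2]
  exact s.2

/-- **The critical case.** -/
theorem main_crit [IsAlgClosed K] [Finite H] [FiniteDimensional K V] {p r : ℕ} [hpf : Fact p.Prime]
    [hrf : Fact r.Prime] (hp2 : p ≠ 2) (hpK : (p : K) ≠ 0) (hrK : (r : K) ≠ 0) (hpr : p ≠ r)
    (ρ : H →* End K V) (Q : Subgroup H) (hQ : IsPGroup r Q) (a : H) (n : ℕ)
    (hord : orderOf a = p ^ (n + 1)) (haQ : a ∈ Subgroup.normalizer (Q : Set H))
    (hQY : ⁅Q, Subgroup.zpowers (a ^ p ^ n)⁆ = Q)
    (hCZ : ∀ g ∈ Q, g * a ^ p ^ n = a ^ p ^ n * g → ∀ h ∈ Q, g * h = h * g)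
    (hmin : ∀ S : Subgroup H, S ≤ Q → S ≠ Q → a ∈ Subgroup.normalizer (S : Set H) →
      S ≤ Subgroup.centralizer (Subgroup.zpowers (a ^ p ^ n) : Set H))
    {U₁ : Submodule K V} (hU₁ : IsIrr ρ Q U₁) (hnt : ∃ g ∈ Q, ∃ u ∈ U₁, ρ g u ≠ u)
    (hfree : ∀ v, ρ a v = v → v = 0) (hfpf : ∀ g ∈ Q, a * g * a⁻¹ = g → g = 1) : False := by
  classical
  have hpp : p.Prime := hpf.out
  have hrp : r.Prime := hrf.out
  have hodd : Odd p := hpp.odd_of_ne_two hp2
  obtain ⟨y, hy⟩ : ∃ y, y = a ^ p ^ n := ⟨_, rfl⟩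
  rw [← hy] at hQY hCZ hmin
  have hfin : IsOfFinOrder a := isOfFinOrder_of_finite a
  obtain ⟨d, U, hd, hdN, hU, hbU, hU₁U, hind⟩ := exists_stab ρ Q a haQ hU₁
  have hbfree := free_of_indep ρ a d hd hind hfree
  have hxn : ∀ i : ℕ, a ^ i ∈ Subgroup.normalizer (Q : Set H) := fun i => Subgroup.pow_mem _ haQ i
  obtain ⟨b, hb⟩ : ∃ b, b = a ^ d := ⟨_, rfl⟩
  rw [← hb] at hbU hbfree
  have hUne : ∃ u₀ ∈ U, u₀ ≠ 0 := Submodule.exists_mem_ne_zero_of_ne_bot hU.ne_bot
  obtain ⟨u₀, hu₀, hu₀0⟩ := hUne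
  have hbne : b ≠ 1 := by
    intro h
    apply hu₀0
    apply hbfree u₀ hu₀
    rw [h, map_one]
    rfl
  have hba : b ∈ Subgroup.zpowers a := by
    rw [hb]
    exact Subgroup.pow_mem _ (Subgroup.mem_zpowers a) _
  have hbn : b ∈ Subgroup.normalizer (Q : Set H) := by
    rw [hb]
    exact hxn d
  have hfinb : IsOfFinOrder b := isOfFinOrder_of_finite b
  have hzU : ∀ c ∈ Subgroup.zpowers b, ∀ u ∈ U, ρ c u ∈ U := by
    intro c hc u hu
    obtain ⟨j, rfl⟩ := hfinb.mem_powers_iff_mem_zpowers.mpr hc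
    simp only
    rw [map_pow]
    induction j with
    | zero => simpa using hu
    | succ j ih =>
      rw [pow_succ', Module.End.mul_apply]
      exact hbU _ (ih (Subgroup.pow_mem _ (Subgroup.mem_zpowers b) _))
  have hzn : ∀ c ∈ Subgroup.zpowers b, c ∈ Subgroup.normalizer (Q : Set H) := fun c hc =>
    (Subgroup.zpowers_le.mpr hbn) hc
  have hzba : ∀ c ∈ Subgroup.zpowers b, c ∈ Subgroup.zpowers a := fun c hc =>
    (Subgroup.zpowers_le.mpr hba) hc
  have hordy : orderOf y = p := by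
    have hyp : y ^ p = 1 := by
      rw [hy, ← pow_mul, ← pow_succ, ← hord, pow_orderOf_eq_one]
    have hy1 : y ≠ 1 := by
      intro h
      rw [hy] at h
      have h1 : orderOf a ∣ p ^ n := orderOf_dvd_of_pow_eq_one h
      rw [hord] at h1
      have h2 := Nat.le_of_dvd (pow_pos hpp.pos n) h1
      have h3 : p ^ n < p ^ (n + 1) := Nat.pow_lt_pow_right hpp.one_lt (Nat.lt_succ_self n)
      omega
    exact orderOf_eq_prime hyp hy1
  have hyb : ∃ l : ℕ, b ^ l = y := by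
    rw [hy]
    exact exists_pow_eq hord hba hbne hfin
  obtain ⟨l₀, hl₀⟩ := hyb
  have hyzb : y ∈ Subgroup.zpowers b := by
    rw [← hl₀]
    exact Subgroup.pow_mem _ (Subgroup.mem_zpowers b) _
  have hcopy : (orderOf y).Coprime r := by
    rw [hordy]
    exact (Nat.coprime_primes hpp hrp).mpr hpr
  have hF : ∀ c ∈ Subgroup.zpowers b, c ≠ 1 → ∀ g ∈ Q,
      (∀ h ∈ Q, ∀ u ∈ U, ρ (g⁻¹ * (c * g * c⁻¹)) (ρ h u) = ρ h (ρ (g⁻¹ * (c * g * c⁻¹)) u)) →
      ∀ h ∈ Q, ∀ u ∈ U, ρ g (ρ h u) = ρ h (ρ g u) := by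
    intro c hc hc1 g hg hcomm
    obtain ⟨l, hl⟩ := exists_pow_eq hord (hzba c hc) hc1 hfin
    rw [← hy] at hl
    exact central_of_fixed (q := r) ρ Q hQ hU (hzn c hc) (hzU c hc)
      (hzU _ (Subgroup.inv_mem _ hc)) l hl hcopy hCZ hg hcomm
  obtain ⟨X, hX, hcount⟩ := critical_count_sub hrK ρ Q hQ hU hbn hbU hF
  have hXp : ∀ (j : ℕ) (v : U), (((X ^ j) v : U) : V) = (ρ b ^ j) v.1 := by
    intro j
    induction j with
    | zero =>
      intro v
      simp
    | succ j ih =>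
      intro v
      rw [pow_succ', pow_succ', Module.End.mul_apply, Module.End.mul_apply, hX, ih]
  have hXr : X ^ orderOf b = 1 := by
    ext v
    rw [hXp, ← map_pow, pow_orderOf_eq_one, map_one]
    rfl
  have hXfree : ∀ v, X v = v → v = 0 := by
    intro v hv
    apply Subtype.ext
    apply hbfree v.1 v.2
    rw [← hX, hv]
  haveI hNT : Nontrivial U := Submodule.nontrivial_iff_ne_bot.mpr hU.ne_bot
  have hD : 0 < finrank K U := Module.finrank_pos
  have hzyU : ∀ z ∈ Subgroup.zpowers y, ∀ u ∈ U, ρ z u ∈ U := fun z hz =>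
    hzU z ((Subgroup.zpowers_le.mpr hyzb) hz)
  -- the dimension is not one
  have hD1 : finrank K U ≠ 1 := by
    intro hD1
    obtain ⟨g, hg, u, hu, hgu⟩ := hnt
    let F : Subgroup H :=
      { carrier := {g | ∀ u ∈ U, ρ g u = u}
        mul_mem' := by
          intro a b ha hb u hu
          rw [map_mul, Module.End.mul_apply, hb u hu, ha u hu]
        one_mem' := by
          intro u _
          simp
        inv_mem' := by
          intro a ha u hu
          have h1 := ha u hu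
          calc ρ a⁻¹ u = ρ a⁻¹ (ρ a u) := by rw [h1]
            _ = u := rho_inv_apply ρ a u }
    have hle : ⁅Q, Subgroup.zpowers y⁆ ≤ F := by
      rw [Subgroup.commutator_le]
      intro a ha z hz v hv
      rw [commutatorElement_def, map_mul, map_mul, map_mul]
      simp only [Module.End.mul_apply]
      have hv1 := hzyU _ (Subgroup.inv_mem _ hz) v hv
      rw [comm_on_line hD1 (hzyU z hz) (hU.inv _ (Q.inv_mem ha)) _ hv1, rho_apply_inv, rho_apply_inv]
    rw [hQY] at hle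
    have h1 : ∀ g ∈ Q, ∀ u ∈ U, ρ g u = u := fun g hg => hle hg
    obtain ⟨f, h0, h2, h3⟩ := hU₁U
    have hinj := hU₁.inj_of_hom h2 h3
    apply hgu
    have h4 : f (ρ g u - u) = 0 := by
      rw [map_sub, h2 g hg u hu, h1 g hg _ (h0 u hu), sub_self]
    have h5 := hinj _ (U₁.sub_mem (hU₁.inv g hg u hu) hu) h4
    exact sub_eq_zero.mp h5
  -- the order of `b`
  obtain ⟨t, ht, hdt⟩ : ∃ t, t ≤ n + 1 ∧ d = p ^ t := by
    rw [hord] at hdN
    exact (Nat.dvd_prime_pow hpp).mp hdN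
  obtain ⟨j, hj⟩ : ∃ j, j = n + 1 - t := ⟨_, rfl⟩
  have htj : t + j = n + 1 := by omega
  have hordb : orderOf b = p ^ j := by
    rw [hb, orderOf_pow' a (by omega), hord, hdt, Nat.gcd_eq_right (pow_dvd_pow p ht), ← htj, pow_add,
      Nat.mul_div_cancel_left _ (pow_pos hpp.pos t)]
  have hrb : (orderOf b : K) ≠ 0 := by
    rw [hordb]
    push_cast
    exact pow_ne_zero _ hpK
  have htri := semisimple_trichotomy X (orderOf b) hrb hXr hXfree hD hcount
  have hdim : finrank K U + 1 = p ^ j := by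
    rw [← hordb]
    exact htri.resolve_left hD1
  obtain ⟨m, hm⟩ := finrank_eq_pow hrK (Nat.card Q) Q le_rfl hQ U (resQ ρ Q U hU.inv) (resQ_irr hU)
  have hm1 : 1 ≤ m := by
    by_contra hm0
    have : m = 0 := by omega
    rw [this, pow_zero] at hm
    exact hD1 hm
  have hr2 : r = 2 := by
    have h1 : Odd (p ^ j) := hodd.pow
    rw [← hdim, hm] at h1
    have h2 : Even (r ^ m) := by
      by_contra h3
      have h4 : Odd (r ^ m) := Nat.not_even_iff_odd.mp h3
      exact (Nat.not_even_iff_odd.mpr h1) (h4.add_odd odd_one)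
    have h3 : Even r := (Nat.even_pow.mp h2).1
    exact (hrp.even_iff.mp h3)
  subst hr2
  -- the twists
  let W : ℕ → Submodule K V := fun i => tw ρ (a ^ i) U
  have hWirr : ∀ i, IsIrr ρ Q (W i) := fun i => hU.tw (hxn i)
  have hW0 : W 0 = U := by
    change tw ρ (a ^ 0) U = U
    rw [pow_zero, tw_one]
  have hWsucc : ∀ i, ∀ u ∈ W (i + 1), ρ a⁻¹ u ∈ W i := by
    intro i u hu
    have hu' : ρ (a ^ (i + 1))⁻¹ u ∈ U := mem_tw.mp hu
    refine mem_tw.mpr ?_
    rw [← Module.End.mul_apply, ← map_mul, ← mul_inv_rev, ← pow_succ']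
    exact hu'
  have hWlast : ∀ u ∈ U, ρ a⁻¹ u ∈ W (d - 1) := by
    intro u hu
    refine mem_tw.mpr ?_
    rw [← Module.End.mul_apply, ← map_mul, ← mul_inv_rev, ← pow_succ']
    have e : d - 1 + 1 = d := by omega
    rw [e, ← hb]
    exact hzU _ (Subgroup.inv_mem _ (Subgroup.mem_zpowers b)) u hu
  -- commutators are central
  have hDD : ⁅Q, Q⁆ ≤ Subgroup.centralizer (Subgroup.zpowers y : Set H) := by
    apply hmin _ (Subgroup.commutator_le_self Q)
    · intro heq
      have hQbot : Q ≠ ⊥ := by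
        rintro rfl
        obtain ⟨g, hg, u, hu, hgu⟩ := hnt
        rw [Subgroup.mem_bot] at hg
        subst hg
        simp at hgu
      haveI : Nontrivial Q := (Subgroup.bot_or_nontrivial Q).resolve_left hQbot
      haveI : Group.IsNilpotent Q := hQ.isNilpotent
      have h1 : commutator Q < ⊤ := Group.IsSolvable.commutator_lt_top_of_nontrivial Q
      have h2 : (commutator Q).map Q.subtype = Q := by
        rw [Subgroup.map_subtype_commutator, heq]
      have h3 : commutator Q = ⊤ := by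
        apply Subgroup.map_injective Q.subtype_injective
        rw [h2, ← MonoidHom.range_eq_map, Subgroup.range_subtype]
      exact h1.ne h3
    · have hT : Subgroup.zpowers a ≤ Subgroup.normalizer (Q : Set H) := Subgroup.zpowers_le.mpr haQ
      exact Cfsg.Agent.Lib.Coprime.Action.le_normalizer_commutator_of_le hT hT (Subgroup.mem_zpowers a)
  have hcentral : ∀ g h k : Q, ⁅g, h⁆ * k = k * ⁅g, h⁆ := by
    intro g h k
    apply Subtype.ext
    have h1 : ((⁅g, h⁆ : Q) : H) ∈ ⁅Q, Q⁆ := by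
      simp only [commutatorElement_def, Subgroup.coe_mul, Subgroup.coe_inv]
      have := Subgroup.commutator_mem_commutator g.2 h.2
      simpa [commutatorElement_def] using this
    have h2 := Subgroup.mem_centralizer_iff.mp (hDD h1) y (Subgroup.mem_zpowers y)
    exact hCZ _ (⁅g, h⁆ : Q).2 h2.symm k.1 k.2
  -- the scalars
  let A : ℕ → Subgroup Q := fun i => scal ρ Q (W i)
  have hAn : ∀ i, (A i).Normal := fun i => scal_normal (hWirr i).inv
  have hAidx : ∀ i, (A i).index ≤ finrank K U ^ 2 := by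
    intro i
    have h1 := index_scal_le hrK hQ (hWirr i) (fun g h => central_mem_scal (hWirr i) _ (hcentral g h))
    have h2 : finrank K (W i) ≤ finrank K U := Submodule.finrank_map_le _ _
    exact h1.trans (Nat.pow_le_pow_left h2 2)
  have hnoncomm : ¬ ∀ g h : Q, ∀ u ∈ U, ρ g.1 (ρ h.1 u) = ρ h.1 (ρ g.1 u) := by
    intro hall
    apply hD1
    refine finrank_eq_one_of_comm (resQ ρ Q U hU.inv) (resQ_irr hU) (fun g h => ?_)
    ext v
    simp only [Module.End.mul_apply, resQ_apply]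
    exact hall g h v.1 v.2
  have hscalU : ∀ g ∈ A 0, ∃ c : K, ∀ u ∈ U, ρ g.1 u = c • u := by
    intro g hg
    have h1 : ∃ c : K, ∀ u ∈ W 0, ρ g.1 u = c • u := hg
    rwa [hW0] at h1
  have hA0 : A 0 ≠ ⊤ := by
    intro htop
    apply hnoncomm
    intro g h u hu
    obtain ⟨c, hc⟩ := hscalU g (by rw [htop]; trivial)
    obtain ⟨c', hc'⟩ := hscalU h (by rw [htop]; trivial)
    rw [hc' u hu, map_smul, hc u hu, map_smul, hc' u hu, smul_comm]
  let D : Subgroup Q := ⨅ i : Fin d, A i.1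
  have hDmem : ∀ g : Q, g ∈ D ↔ ∀ i : Fin d, g ∈ A i.1 := fun g => Subgroup.mem_iInf
  haveI hDn : D.Normal := ⟨fun x hx g => (hDmem _).mpr fun i => (hAn i.1).conj_mem x ((hDmem x).mp hx i) g⟩
  have hDA0 : D ≤ A 0 := fun g hg => (hDmem g).mp hg ⟨0, hd⟩
  have hDtop : D ≠ ⊤ := by
    intro h
    apply hA0
    rw [eq_top_iff, ← h]
    exact hDA0
  -- `a` normalizes `D`
  have hconjD : ∀ g : Q, g ∈ D → ∀ h : Q, h.1 = a * g.1 * a⁻¹ → h ∈ D := by
    intro g hg h hh
    rw [hDmem] at hg ⊢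
    intro i
    obtain ⟨i', hi', hmaps⟩ : ∃ i' : ℕ, i' < d ∧ ∀ u ∈ W i.1, ρ a⁻¹ u ∈ W i' := by
      obtain ⟨i, hi⟩ := i
      cases i with
      | zero =>
        refine ⟨d - 1, by omega, fun u hu => hWlast u ?_⟩
        rwa [hW0] at hu
      | succ i => exact ⟨i, by omega, hWsucc i⟩
    obtain ⟨c, hc⟩ := hg ⟨i', hi'⟩
    refine ⟨c, fun u hu => ?_⟩
    rw [hh, map_mul, map_mul, Module.End.mul_apply, Module.End.mul_apply, hc _ (hmaps u hu), map_smul,
      rho_apply_inv]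
  let DH : Subgroup H := D.map Q.subtype
  have hDHQ : DH ≤ Q := by
    rintro _ ⟨g, -, rfl⟩
    exact g.2
  have hDHne : DH ≠ Q := by
    intro h
    apply hDtop
    rw [eq_top_iff]
    intro g _
    have h1 : g.1 ∈ DH := by
      rw [h]
      exact g.2
    obtain ⟨g', hg', hgg'⟩ := h1
    have : g' = g := Subtype.ext hgg'
    rwa [← this]
  have hDHn : a ∈ Subgroup.normalizer (DH : Set H) := by
    apply mem_normalizer_of_conj_mem
    rintro _ ⟨g, hg, rfl⟩
    have h1 : a * g.1 * a⁻¹ ∈ Q := conj_mem_of_mem_normalizer haQ g.2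
    exact ⟨⟨_, h1⟩, hconjD g hg ⟨_, h1⟩ rfl, rfl⟩
  have hDHc := hmin DH hDHQ hDHne hDHn
  have hDcy : ∀ g : Q, g ∈ D → g.1 * y = y * g.1 := by
    intro g hg
    have h1 : g.1 ∈ DH := ⟨g, hg, rfl⟩
    exact (Subgroup.mem_centralizer_iff.mp (hDHc h1) y (Subgroup.mem_zpowers y)).symm
  have hCD : ∀ g : Q, g.1 * y = y * g.1 → g ∈ D := by
    intro g hg
    rw [hDmem]
    intro i
    refine central_mem_scal (hWirr i.1) g (fun h => Subtype.ext ?_)
    exact hCZ g.1 g.2 hg h.1 h.2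
  -- the automorphism of `Q`
  let θ : MulAut Q := Q.normalizerMonoidHom ⟨a, haQ⟩
  have hθ : ∀ g : Q, ((θ g : Q) : H) = a * g.1 * a⁻¹ := fun g => rfl
  have hθpow : ∀ (k : ℕ) (g : Q), (((θ ^ k) g : Q) : H) = a ^ k * g.1 * (a ^ k)⁻¹ := by
    intro k
    induction k with
    | zero => intro g; simp
    | succ k ih =>
      intro g
      rw [pow_succ', MulAut.mul_apply, hθ, ih, pow_succ']
      group
  have hθD : ∀ g ∈ D, θ g ∈ D := fun g hg => hconjD g hg _ rfl
  have hmap : D.map θ.toMonoidHom = D := by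
    apply Subgroup.eq_of_le_of_card_ge
    · rintro _ ⟨x, hx, rfl⟩
      exact hθD x hx
    · exact le_of_eq (Nat.card_congr (θ.subgroupMap D).toEquiv)
  let θq : MulAut (Q ⧸ D) := QuotientGroup.congr D D θ hmap
  have hθq : ∀ x : Q, θq (x : Q ⧸ D) = ((θ x : Q) : Q ⧸ D) := fun x => rfl
  have hθqpow : ∀ (k : ℕ) (x : Q), (θq ^ k) (x : Q ⧸ D) = (((θ ^ k) x : Q) : Q ⧸ D) := by
    intro k
    induction k with
    | zero => intro x; rfl
    | succ k ih' =>
      intro x
      rw [pow_succ, pow_succ, MulAut.mul_apply, MulAut.mul_apply, hθq, ih']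
  have hNpos : 0 < p ^ (n + 1) := pow_pos hpp.pos _
  have hθqN : θq ^ (p ^ (n + 1)) = 1 := by
    apply MulEquiv.ext
    intro z
    induction z using QuotientGroup.induction_on with
    | H x =>
      rw [hθqpow]
      have h1 : (θ ^ (p ^ (n + 1))) x = x := by
        apply Subtype.ext
        rw [hθpow, ← hord, pow_orderOf_eq_one]
        simp
      rw [h1]
      rfl
  have hfreeq : ∀ k, 0 < k → k < p ^ (n + 1) → ∀ z : Q ⧸ D, (θq ^ k) z = z → z = 1 := by
    intro k hk0 hkN z hz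
    induction z using QuotientGroup.induction_on with
    | H g =>
      have hc1 : a ^ k ≠ 1 := pow_ne_one_of_lt_orderOf hk0.ne' (by rwa [hord])
      obtain ⟨l, hl⟩ := exists_pow_eq hord (Subgroup.pow_mem _ (Subgroup.mem_zpowers a) k) hc1 hfin
      rw [← hy, ← pow_mul] at hl
      have hit : ∀ l' : ℕ, ((θq ^ k) ^ l') (g : Q ⧸ D) = (g : Q ⧸ D) := by
        intro l'
        induction l' with
        | zero => rfl
        | succ l' ih =>
          rw [pow_succ', MulAut.mul_apply, ih, hz]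
      have h1 := hit l
      rw [← pow_mul, hθqpow, QuotientGroup.eq] at h1
      -- the element `t`
      have hval : (((θ ^ (k * l)) g : Q) : H) = y * g.1 * y⁻¹ := by
        rw [hθpow, hl]
      obtain ⟨t, ht⟩ : ∃ t : Q, t = ((θ ^ (k * l)) g)⁻¹ * g := ⟨_, rfl⟩
      rw [← ht] at h1
      have hty := hDcy t h1
      have hgt : y * g.1 * y⁻¹ * t.1 = g.1 := by
        rw [ht, Subgroup.coe_mul, Subgroup.coe_inv, hval]
        group
      have hyg : y * g.1 = g.1 * t.1⁻¹ * y := by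
        have h2 : y * g.1 * y⁻¹ = g.1 * t.1⁻¹ := eq_mul_inv_of_mul_eq hgt
        rw [← h2]
        group
      have hitY : ∀ i : ℕ, y ^ i * g.1 = g.1 * (t.1⁻¹) ^ i * y ^ i := by
        intro i
        induction i with
        | zero => simp
        | succ i ih =>
          have hty' : y * t.1⁻¹ = t.1⁻¹ * y := by
            have h3 : Commute t.1 y := hty
            exact (h3.inv_left).eq.symm
          have hcomm : y * (t.1⁻¹) ^ i = (t.1⁻¹) ^ i * y := ((Commute.pow_right (show Commute y t.1⁻¹ from hty') i)).eq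
          calc y ^ (i + 1) * g.1 = y * (y ^ i * g.1) := by rw [pow_succ']; group
            _ = y * (g.1 * (t.1⁻¹) ^ i * y ^ i) := by rw [ih]
            _ = (y * g.1) * (t.1⁻¹) ^ i * y ^ i := by group
            _ = g.1 * t.1⁻¹ * y * (t.1⁻¹) ^ i * y ^ i := by rw [hyg]
            _ = g.1 * t.1⁻¹ * (y * (t.1⁻¹) ^ i) * y ^ i := by group
            _ = g.1 * t.1⁻¹ * ((t.1⁻¹) ^ i * y) * y ^ i := by rw [hcomm]
            _ = g.1 * (t.1⁻¹) ^ (i + 1) * y ^ (i + 1) := by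
              rw [pow_succ', pow_succ' y]
              group
      have hyp : y ^ p = 1 := by
        rw [← hordy, pow_orderOf_eq_one]
      have h3 := hitY p
      rw [hyp, one_mul, mul_one] at h3
      have h4 : (t.1⁻¹) ^ p = 1 := by
        have := mul_left_cancel (a := g.1) (b := (t.1⁻¹) ^ p) (c := 1) (by rw [mul_one]; exact h3.symm)
        exact this
      have ht1 : t.1 = 1 := by
        obtain ⟨i, hi⟩ := hQ t
        have h5 : t.1 ^ 2 ^ i = 1 := congrArg Subtype.val hi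
        have h6 : t.1 ^ p = 1 := by
          rw [← inv_inj, inv_one, ← inv_pow]
          exact h4
        have h7 : t.1 ^ Nat.gcd p (2 ^ i) = 1 := pow_gcd_eq_one.mpr ⟨h6, h5⟩
        have h8 : Nat.gcd p (2 ^ i) = 1 :=
          Nat.Coprime.pow_right i ((Nat.coprime_primes hpp Nat.prime_two).mpr hp2)
        rw [h8, pow_one] at h7
        exact h7
      have hyg2 : y * g.1 = g.1 * y := by
        rw [hyg, ht1]
        simp
      have h9 := hCD g hyg2.symm
      exact (QuotientGroup.eq_one_iff g).mpr h9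
  have hdvdidx : p ^ (n + 1) ∣ Nat.card (Q ⧸ D) - 1 :=
    dvd_card_sub_one_of_free θq _ hNpos hθqN hfreeq
  have hDidx : D.index = Nat.card (Q ⧸ D) := rfl
  obtain ⟨kQ, hkQ⟩ := IsPGroup.iff_card.mp hQ
  obtain ⟨e, -, he⟩ : ∃ e, e ≤ kQ ∧ D.index = 2 ^ e := by
    have h1 := Subgroup.index_dvd_card D
    rw [hkQ] at h1
    exact (Nat.dvd_prime_pow Nat.prime_two).mp h1
  have he0 : 0 < e := by
    apply Nat.pos_of_ne_zero
    rintro rfl
    rw [pow_zero, Subgroup.index_eq_one] at he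
    exact hDtop he
  have hjm : 2 ^ m + 1 = p ^ j := by
    rw [← hdim, hm]
  have hbig : 2 * m * p ^ t ≤ e := by
    refine le_of_dvd_two_pow_sub_one hpp hp2 hm1 hjm he0 ?_
    rw [htj, ← he]
    exact hdvdidx
  obtain ⟨M, hM⟩ : ∃ M, M = finrank K U ^ 2 := ⟨_, rfl⟩
  have hMpow : M ^ d ≤ D.index := by
    rw [hM, hm, he, hdt, ← pow_mul, ← pow_mul]
    apply Nat.pow_le_pow_right (by norm_num)
    calc m * (2 * p ^ t) = 2 * m * p ^ t := by ring
      _ ≤ e := hbig
  -- the decomposition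
  have hAidx' : ∀ i, (A i).index ≤ M := fun i => hM ▸ hAidx i
  let i₀ : Fin d := ⟨0, hd⟩
  let B : Subgroup Q := ⨅ i : {i : Fin d // i ≠ i₀}, A i.1.1
  have hBmem : ∀ g : Q, g ∈ B ↔ ∀ i : {i : Fin d // i ≠ i₀}, g ∈ A i.1.1 := fun g => Subgroup.mem_iInf
  have hDAB : A 0 ⊓ B = D := by
    ext g
    rw [Subgroup.mem_inf, hDmem, hBmem]
    constructor
    · rintro ⟨h1, h2⟩ i
      by_cases hi : i = i₀
      · rw [hi]
        exact h1
      · exact h2 ⟨i, hi⟩
    · intro h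
      exact ⟨h i₀, fun i => h i.1⟩
  have hBidx : B.index ≤ M ^ (d - 1) := by
    have h1 := Subgroup.index_iInf_le (fun i : {i : Fin d // i ≠ i₀} => A i.1.1)
    have h2 : ∏ i : {i : Fin d // i ≠ i₀}, (A i.1.1).index ≤ M ^ (Finset.univ : Finset {i : Fin d // i ≠ i₀}).card :=
      Finset.prod_le_pow_card _ _ _ (fun i _ => hAidx' _)
    have h3 : (Finset.univ : Finset {i : Fin d // i ≠ i₀}).card = d - 1 := by
      rw [Finset.card_univ, Fintype.card_subtype_compl]
      simp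
    rw [h3] at h2
    exact h1.trans h2
  haveI hA0n : (A 0).Normal := hAn 0
  have hform := index_inf_mul_index_sup (A 0) B
  rw [hDAB] at hform
  have hsup : B ⊔ A 0 = ⊤ := by
    have hpos : 0 < D.index := Nat.pos_of_ne_zero Subgroup.index_ne_zero_of_finite
    have h1 : (A 0).index * B.index ≤ M ^ d := by
      have e : M ^ d = M * M ^ (d - 1) := by
        rw [← pow_succ']
        congr 1
        omega
      rw [e]
      exact Nat.mul_le_mul (hAidx' 0) hBidx
    have h2 : D.index * (B ⊔ A 0).index ≤ D.index * 1 := by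
      rw [hform, mul_one]
      exact h1.trans hMpow
    have h3 := Nat.le_of_mul_le_mul_left h2 hpos
    have h4 : (B ⊔ A 0).index ≠ 0 := Subgroup.index_ne_zero_of_finite
    have h5 : (B ⊔ A 0).index = 1 := by omega
    exact Subgroup.index_eq_one.mp h5
  -- elements of `B` not commuting on `U`
  obtain ⟨b₁, b₂, hb₁, hb₂, hb12⟩ : ∃ b₁ b₂ : Q, b₁ ∈ B ∧ b₂ ∈ B ∧
      ¬ ∀ u ∈ U, ρ b₁.1 (ρ b₂.1 u) = ρ b₂.1 (ρ b₁.1 u) := by
    by_contra hall
    push Not at hall
    apply hnoncomm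
    intro g₁ g₂ u hu
    have hg₁ : g₁ ∈ B ⊔ A 0 := by rw [hsup]; trivial
    have hg₂ : g₂ ∈ B ⊔ A 0 := by rw [hsup]; trivial
    obtain ⟨x₁, hx₁, z₁, hz₁, rfl⟩ := Subgroup.mem_sup_of_normal_right.mp hg₁
    obtain ⟨x₂, hx₂, z₂, hz₂, rfl⟩ := Subgroup.mem_sup_of_normal_right.mp hg₂
    obtain ⟨c₁, hc₁⟩ := hscalU z₁ hz₁
    obtain ⟨c₂, hc₂⟩ := hscalU z₂ hz₂
    have hall' := hall x₁ x₂ hx₁ hx₂
    obtain ⟨u', hu'⟩ : ∃ u' : U, (u' : V) = u := ⟨⟨u, hu⟩, rfl⟩
    simp only [Subgroup.coe_mul, map_mul, Module.End.mul_apply]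
    rw [hc₂ u hu, map_smul, map_smul, map_smul, hc₁ u hu, map_smul, map_smul, map_smul,
      hc₁ _ (hU.inv _ x₂.2 u hu), map_smul, hc₂ _ (hU.inv _ x₁.2 u hu), map_smul, hall' u hu]
    rw [smul_smul, smul_smul, mul_comm]
  push Not at hb12
  obtain ⟨u₁, hu₁, hu₁ne⟩ := hb12
  obtain ⟨w, hw⟩ : ∃ w : Q, w = ⁅b₁, b₂⁆ := ⟨_, rfl⟩
  have hwc : ∀ h : Q, w * h = h * w := fun h => by rw [hw]; exact hcentral _ _ _
  obtain ⟨μ, hμ⟩ : ∃ μ : K, ∀ u ∈ U, ρ w.1 u = μ • u := by
    have h1 : w ∈ scal ρ Q (W 0) := central_mem_scal (hWirr 0) w hwc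
    obtain ⟨μ, hμ⟩ := h1
    rw [hW0] at hμ
    exact ⟨μ, hμ⟩
  have hwval : w.1 = b₁.1 * b₂.1 * b₁.1⁻¹ * b₂.1⁻¹ := by
    rw [hw]
    simp [commutatorElement_def]
  have hμ1 : μ ≠ 1 := by
    intro h1
    apply hu₁ne
    have h2 : ρ b₂.1 (ρ b₁.1 u₁) ∈ U := hU.inv _ b₂.2 _ (hU.inv _ b₁.2 _ hu₁)
    have h3 := hμ _ h2
    rw [h1, one_smul, hwval] at h3
    have h4 : b₁.1 * b₂.1 * b₁.1⁻¹ * b₂.1⁻¹ * (b₂.1 * b₁.1) = b₁.1 * b₂.1 := by group
    have h5 : ρ (b₁.1 * b₂.1 * b₁.1⁻¹ * b₂.1⁻¹) (ρ b₂.1 (ρ b₁.1 u₁)) = ρ (b₁.1 * b₂.1) u₁ := by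
      have e : ρ (b₁.1 * b₂.1) = ρ (b₁.1 * b₂.1 * b₁.1⁻¹ * b₂.1⁻¹) * (ρ b₂.1 * ρ b₁.1) := by
        rw [← map_mul, ← map_mul, h4]
      rw [e]
      rfl
    rw [h5] at h3
    rw [map_mul, Module.End.mul_apply] at h3
    exact h3
  have htriv : ∀ i : ℕ, 0 < i → i < d → ∀ v ∈ W i, ρ w.1 v = v := by
    intro i hi0 hid v hv
    have hne : (⟨i, hid⟩ : Fin d) ≠ i₀ := by
      intro h
      have := congrArg Fin.val h
      simp only [i₀] at this
      omega
    have hb₁A : b₁ ∈ A i := (hBmem b₁).mp hb₁ ⟨⟨i, hid⟩, hne⟩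
    have hb₁A' : b₁⁻¹ ∈ A i := (A i).inv_mem hb₁A
    obtain ⟨c, hc⟩ := hb₁A
    obtain ⟨c', hc'⟩ := hb₁A'
    have hv' : ρ b₂.1⁻¹ v ∈ W i := (hWirr i).inv _ (Q.inv_mem b₂.2) v hv
    have h1 : ρ b₁.1⁻¹ (ρ b₂.1⁻¹ v) = c' • ρ b₂.1⁻¹ v := hc' _ hv'
    have h2 : ρ b₁.1 (ρ b₂.1 (ρ b₁.1⁻¹ (ρ b₂.1⁻¹ v))) = c' • c • v := by
      rw [h1, map_smul, map_smul, rho_apply_inv, hc v hv]
    have h3 : c' • c • v = v := by
      have h4 : ρ b₁.1 (ρ b₁.1⁻¹ v) = v := rho_apply_inv ρ b₁.1 v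
      have h5 : ρ b₁.1⁻¹ v = c' • v := hc' v hv
      rw [h5, map_smul, hc v hv] at h4
      exact h4
    rw [hwval, map_mul, map_mul, map_mul, Module.End.mul_apply, Module.End.mul_apply, Module.End.mul_apply, h2, h3]
  -- the element `c`
  have hθfix : ∀ g : Q, θ g = g → g = 1 := by
    intro g hg
    apply Subtype.ext
    exact hfpf g.1 g.2 (congrArg Subtype.val hg)
  have hθcen : ∀ z ∈ Subgroup.center Q, θ z ∈ Subgroup.center Q := by
    intro z hz
    rw [Subgroup.mem_center_iff] at hz ⊢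
    intro g
    obtain ⟨g', rfl⟩ := θ.surjective g
    rw [← map_mul, ← map_mul, hz]
  let f : Subgroup.center Q → Subgroup.center Q := fun z =>
    ⟨z.1⁻¹ * θ z.1, Subgroup.mul_mem _ (Subgroup.inv_mem _ z.2) (hθcen z.1 z.2)⟩
  have hf : Function.Injective f := by
    intro z₁ z₂ h12
    have h1 : z₁.1⁻¹ * θ z₁.1 = z₂.1⁻¹ * θ z₂.1 := congrArg Subtype.val h12
    have h2 : θ (z₂.1 * z₁.1⁻¹) = z₂.1 * z₁.1⁻¹ := by
      rw [map_mul, map_inv]
      have h3 : θ z₂.1 = z₂.1 * (z₁.1⁻¹ * θ z₁.1) := by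
        rw [h1]
        group
      rw [h3]
      group
    have h4 := hθfix _ h2
    exact (Subtype.ext (mul_inv_eq_one.mp h4)).symm
  have hwcen : w ∈ Subgroup.center Q := by
    rw [Subgroup.mem_center_iff]
    exact fun g => (hwc g).symm
  obtain ⟨⟨c, hcZ⟩, hc⟩ := (Finite.injective_iff_surjective.mp hf) ⟨w, hwcen⟩
  have hc1 : c⁻¹ * θ c = w := congrArg Subtype.val hc
  have hc2 : a * c.1 * a⁻¹ = c.1 * w.1 := by
    rw [← hc1, Subgroup.coe_mul, Subgroup.coe_inv, hθ]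
    group
  have hcc : ∀ h : Q, c * h = h * c := fun h => (Subgroup.mem_center_iff.mp hcZ h).symm
  -- the scalar of `c`
  obtain ⟨lam, hlam⟩ : ∃ lam : K, ∀ u ∈ U, ρ c.1 u = lam • u := by
    have h1 : c ∈ scal ρ Q (W 0) := central_mem_scal (hWirr 0) c hcc
    obtain ⟨lam, hlam⟩ := h1
    rw [hW0] at hlam
    exact ⟨lam, hlam⟩
  have hconjc : ∀ u : V, ρ (a * c.1 * a⁻¹) u = ρ a (ρ c.1 (ρ a⁻¹ u)) := by
    intro u
    rw [map_mul, map_mul, Module.End.mul_apply, Module.End.mul_apply]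
  have hWlam : ∀ i : ℕ, i < d → ∀ u ∈ W i, ρ c.1 u = lam • u := by
    intro i
    induction i with
    | zero =>
      intro _ u hu
      rw [hW0] at hu
      exact hlam u hu
    | succ i ih =>
      intro hi u hu
      have h1 := ih (by omega) _ (hWsucc i u hu)
      have h2 := hconjc u
      rw [h1, map_smul, rho_apply_inv, hc2, map_mul, Module.End.mul_apply, htriv (i + 1) (by omega) hi u hu] at h2
      exact h2
  have hfinal := hconjc u₀
  rw [hWlam (d - 1) (by omega) _ (hWlast u₀ hu₀), map_smul, rho_apply_inv, hc2, map_mul, Module.End.mul_apply,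
    hμ u₀ hu₀, map_smul, hlam u₀ hu₀, smul_smul] at hfinal
  have hlam0 : lam ≠ 0 := by
    intro h0
    have h1 := hlam u₀ hu₀
    rw [h0, zero_smul] at h1
    apply hu₀0
    rw [← rho_inv_apply ρ c.1 u₀, h1, map_zero]
  have h5 : (μ * lam - lam) • u₀ = 0 := by
    rw [sub_smul, hfinal, sub_self]
  have h6 := (smul_eq_zero.mp h5).resolve_right hu₀0
  apply hμ1
  have h7 : (μ - 1) * lam = 0 := by
    linear_combination h6
  exact sub_eq_zero.mp ((mul_eq_zero.mp h7).resolve_right hlam0)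

end crit

section rep

variable {F : Type u} [Field F] {W : Type v} [AddCommGroup W] [Module F W] [FiniteDimensional F W]
  {H : Type w} [Group H] [Finite H]

/-- **Key theorem.** A `p`-element `a` (`p` odd) acting without fixed vectors on a module and without fixed
points on an `r`-group `R` faithful on the module: the subgroup of order `p` of `⟨a⟩` centralizes `R`. -/
theorem le_centralizer_of_free {p r : ℕ} [hpf : Fact p.Prime] [hrf : Fact r.Prime] (hp2 : p ≠ 2)
    (hpF : (p : F) ≠ 0) (hrF : (r : F) ≠ 0) (hpr : p ≠ r) (ρ : H →* End F W) (R : Subgroup H)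
    (hR : IsPGroup r R) (a : H) (n : ℕ) (hord : orderOf a = p ^ (n + 1))
    (haR : a ∈ Subgroup.normalizer (R : Set H)) (hfaith : ∀ g ∈ R, ρ g = 1 → g = 1)
    (hfree : ∀ v, ρ a v = v → v = 0) (hfpf : ∀ g ∈ R, a * g * a⁻¹ = g → g = 1) :
    R ≤ Subgroup.centralizer (Subgroup.zpowers (a ^ p ^ n) : Set H) := by
  classical
  have hpp : p.Prime := hpf.out
  have hrp : r.Prime := hrf.out
  by_contra hne
  obtain ⟨y, hy⟩ : ∃ y, y = a ^ p ^ n := ⟨_, rfl⟩
  rw [← hy] at hne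
  let Y := Subgroup.zpowers y
  let T := Subgroup.zpowers a
  have hordy : orderOf y = p := by
    have hyp : y ^ p = 1 := by
      rw [hy, ← pow_mul, ← pow_succ, ← hord, pow_orderOf_eq_one]
    have hy1 : y ≠ 1 := by
      intro h
      rw [hy] at h
      have h1 : orderOf a ∣ p ^ n := orderOf_dvd_of_pow_eq_one h
      rw [hord] at h1
      have h2 := Nat.le_of_dvd (pow_pos hpp.pos n) h1
      have h3 : p ^ n < p ^ (n + 1) := Nat.pow_lt_pow_right hpp.one_lt (Nat.lt_succ_self n)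
      omega
    exact orderOf_eq_prime hyp hy1
  let P : Subgroup H → Prop := fun Q => Q ≤ R ∧ a ∈ Subgroup.normalizer (Q : Set H) ∧
    ¬ Q ≤ Subgroup.centralizer (Y : Set H)
  obtain ⟨Q, hQmin⟩ := exists_minimal_of_wellFoundedLT P ⟨R, le_rfl, haR, hne⟩
  obtain ⟨hQR, haQ, hQY⟩ := hQmin.1
  have hmin : ∀ S : Subgroup H, S ≤ Q → S ≠ Q → a ∈ Subgroup.normalizer (S : Set H) →
      S ≤ Subgroup.centralizer (Y : Set H) := by
    intro S hSQ hne' haS
    by_contra hS
    exact hne' (le_antisymm hSQ (hQmin.2 ⟨hSQ.trans hQR, haS, hS⟩ hSQ))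
  have hQp : IsPGroup r Q := hR.to_le hQR
  have hYT : Y ≤ T := by
    rw [Subgroup.zpowers_le, hy]
    exact Subgroup.pow_mem _ (Subgroup.mem_zpowers a) _
  have hay : ∀ z ∈ Y, a * z = z * a := by
    intro z hz
    obtain ⟨k, rfl⟩ := Subgroup.mem_zpowers_iff.mp hz
    have h1 : Commute a y := by
      rw [hy]
      exact (Commute.refl a).pow_right _
    exact (h1.zpow_right k).eq
  have hTY : T ≤ Subgroup.normalizer (Y : Set H) := by
    rw [Subgroup.zpowers_le, Subgroup.mem_normalizer_iff]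
    intro h
    constructor
    · intro hh
      rw [hay h hh, mul_inv_cancel_right]
      exact hh
    · intro hh
      have h1 := hay _ hh
      have e : h = a * h * a⁻¹ := by
        have h2 : a * (a * h * a⁻¹) = a * h * a⁻¹ * a := h1
        have h4 : a * h * a⁻¹ * a = a * h := by group
        rw [h4] at h2
        exact (mul_left_cancel h2).symm
      rw [e]
      exact hh
  have hcopY : (Nat.card Y).Coprime (Nat.card Q) := by
    obtain ⟨k, hk⟩ := IsPGroup.iff_card.mp hQp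
    rw [Nat.card_zpowers, hordy, hk]
    exact Nat.Coprime.pow_right _ ((Nat.coprime_primes hpp hrp).mpr hpr)
  have hsolY : Group.IsSolvable Y := by
    infer_instance
  obtain ⟨Q', hQ'Q, hTQ', hQ'Y, hQ'bot, hZ⟩ := Cfsg.Agent.Lib.HallHigman.Reduction.exists_minimal T Y Q hYT hTY hQp
    (Subgroup.zpowers_le.mpr haQ) hcopY hsolY hQY
  have hQ'eq : Q' = Q := by
    by_contra hne'
    apply hQ'bot
    have h1 := hmin Q' hQ'Q hne' (hTQ' (Subgroup.mem_zpowers a))
    have h2 : ⁅Q', Y⁆ = ⊥ := by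
      rw [Subgroup.commutator_eq_bot_iff_le_centralizer]
      exact h1
    rw [← hQ'Y, h2]
  subst hQ'eq
  obtain ⟨g₀, hg₀⟩ := (Subgroup.ne_bot_iff_exists_ne_one (H := Q')).mp hQ'bot
  let K := AlgebraicClosure F
  let b := Module.End.baseChangeHom F K W
  let ρ' : H →* End K (TensorProduct F K W) := (b.toMonoidHom).comp ρ
  have hρg₀ : ρ g₀.1 ≠ 1 := fun h => hg₀ (Subtype.ext (hfaith _ (hQR g₀.2) h))
  have hρ'g₀ : ρ' g₀.1 ≠ 1 := by
    intro h
    apply hρg₀
    have h2 : b (ρ g₀.1) = b 1 := by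
      rw [map_one]
      exact h
    exact LinearMap.baseChangeHom_injective F W K h2
  have hp' : (p : K) ≠ 0 := by
    have := (algebraMap F K).injective.ne hpF
    simpa using this
  have hr' : (r : K) ≠ 0 := by
    have := (algebraMap F K).injective.ne hrF
    simpa using this
  obtain ⟨U₁, hU₁, hnt⟩ := Cfsg.Agent.Lib.HallHigman.Reduction.exists_irr_nontrivial hr' ρ' Q' hQp g₀.2 hρ'g₀
  have hinj : Function.Injective (ρ a - 1 : End F W) := by
    rw [← LinearMap.ker_eq_bot, LinearMap.ker_eq_bot']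
    intro v hv
    apply hfree
    have h1 : ρ a v - v = 0 := hv
    exact sub_eq_zero.mp h1
  have hinj' : Function.Injective ((ρ a - 1 : End F W).baseChange K) := by
    rw [LinearMap.baseChange_eq_ltensor]
    exact Module.Flat.lTensor_preserves_injective_linearMap _ hinj
  have hfree' : ∀ v, ρ' a v = v → v = 0 := by
    intro v hv
    apply hinj'
    rw [map_zero]
    have h1 : (ρ a - 1 : End F W).baseChange K = ρ' a - 1 := by
      change b (ρ a - 1) = b (ρ a) - 1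
      rw [map_sub, map_one]
    rw [h1, LinearMap.sub_apply, hv, Module.End.one_apply, sub_self]
  have hCZ : ∀ g ∈ Q', g * a ^ p ^ n = a ^ p ^ n * g → ∀ h ∈ Q', g * h = h * g := by
    intro g hg hgx h hh
    refine hZ g hg (fun z hz => ?_) h hh
    obtain ⟨k, rfl⟩ := Subgroup.mem_zpowers_iff.mp hz
    have h1 : Commute g y := by
      rw [hy]
      exact hgx
    exact (h1.zpow_right k).eq
  have hQ'Y' : ⁅Q', Subgroup.zpowers (a ^ p ^ n)⁆ = Q' := by
    rw [← hy]
    exact hQ'Y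
  have hmin' : ∀ S : Subgroup H, S ≤ Q' → S ≠ Q' → a ∈ Subgroup.normalizer (S : Set H) →
      S ≤ Subgroup.centralizer (Subgroup.zpowers (a ^ p ^ n) : Set H) := by
    rw [← hy]
    exact hmin
  exact main_crit hp2 hp' hr' hpr ρ' Q' hQp a n hord (hTQ' (Subgroup.mem_zpowers a)) hQ'Y' hCZ hmin' hU₁ hnt hfree'
    (fun g hg => hfpf g (hQR hg))

end rep

end Cfsg.Agent.Lib.ShultGross.Core
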