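/-
The Shult-Gross theorem for odd `p`: a solvable group with a fixed point free automorphism of order `p ^ n`
has Fitting height at most `n`.
-/
import Cfsg.Agent.Lib.ShultGross.Core
import Cfsg.Agent.Lib.Core.PSolvable2
import Cfsg.Agent.Lib.SigmaFour.Main

set_option autoImplicit false
set_option linter.style.haveILetI false
set_option linter.unusedSectionVars false

namespace Cfsg.Agent.Lib.ShultGross.Main

open Module Cfsg Cfsg.Agent.Lib.HallHigman.Irr Cfsg.Agent.Lib.ShultGross.Core
  Cfsg.Agent.Lib.Core.Basic Cfsg.Agent.Lib.Coprime.Action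
open scoped commutatorElement

universe u

/-- A fixed point free automorphism of `p`-power order: the order of the group is prime to `p`. -/
theorem coprime_card_of_fpf {X : Type*} [Group X] [Finite X] {p k : ℕ} [hp : Fact p.Prime] (τ : MulAut X)
    (hτ : τ ^ p ^ k = 1) (hfix : ∀ x, τ x = x → x = 1) : (Nat.card X).Coprime p := by
  classical
  have hA : IsPGroup p (Subgroup.zpowers τ) := by
    have h1 : orderOf τ ∣ p ^ k := orderOf_dvd_of_pow_eq_one hτ
    obtain ⟨j, -, hj⟩ := (Nat.dvd_prime_pow hp.out).mp h1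
    apply IsPGroup.of_card (n := j)
    rw [Nat.card_zpowers, hj]
  letI : MulAction (Subgroup.zpowers τ) X := MulAction.compHom X (Subgroup.zpowers τ).subtype
  have h1 := hA.card_modEq_card_fixedPoints X
  have hf : MulAction.fixedPoints (Subgroup.zpowers τ) X = {1} := by
    ext x
    constructor
    · intro hx
      exact hfix x (hx ⟨τ, Subgroup.mem_zpowers τ⟩)
    · rintro rfl a
      exact map_one a.1
  rw [hf, Nat.card_coe_set_eq, Set.ncard_singleton] at h1
  rw [Nat.coprime_comm, Nat.Prime.coprime_iff_not_dvd hp.out]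
  intro hd
  have h3 : Nat.card X ≡ 0 [MOD p] := (Nat.modEq_zero_iff_dvd).mpr hd
  have h4 : 0 ≡ 1 [MOD p] := h3.symm.trans h1
  have h5 := (Nat.modEq_zero_iff_dvd).mp h4.symm
  exact hp.out.one_lt.ne' (Nat.dvd_one.mp h5)

/-- Module-level statement. -/
theorem comm_of_irreducible {V : Type u} [CommGroup V] [Finite V] [Nontrivial V] {q p : ℕ} (hq : q.Prime)
    (hp : p.Prime) (hp2 : p ≠ 2) (hVq : ∀ v : V, v ^ q = 1) (n : ℕ) (s : MulAut V) (hs : s ^ p ^ (n + 1) = 1)
    (hfix : ∀ v, s v = v → v = 1) (Q : Subgroup (MulAut V)) (hQsol : Group.IsSolvable Q)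
    (hQs : ∀ t ∈ Q, s * t * s⁻¹ ∈ Q) (hQf : ∀ t ∈ Q, s * t * s⁻¹ = t → t = 1)
    (hirr : ∀ W : Subgroup V, W ≠ ⊥ → (∀ t ∈ Q, ∀ w ∈ W, t w ∈ W) → (∀ w ∈ W, s w ∈ W) → W = ⊤) :
    ∀ t ∈ Q, s ^ p ^ n * t = t * s ^ p ^ n := by
  classical
  haveI hqf : Fact q.Prime := ⟨hq⟩
  haveI hpf : Fact p.Prime := ⟨hp⟩
  haveI : Finite (MulAut V) := inferInstance
  by_cases hx : s ^ p ^ n = 1
  · intro t _
    rw [hx, one_mul, mul_one]
  have hord : orderOf s = p ^ (n + 1) := orderOf_eq_prime_pow hx hs
  have hVc : (Nat.card V).Coprime p := coprime_card_of_fpf s hs hfix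
  have hVq' : IsPGroup q V := fun v => ⟨1, by simpa using hVq v⟩
  have hqV : q ∣ Nat.card V := by
    obtain ⟨k, hk⟩ := IsPGroup.iff_card.mp hVq'
    have hk0 : k ≠ 0 := by
      rintro rfl
      rw [pow_zero] at hk
      have := Finite.one_lt_card (α := V)
      omega
    rw [hk]
    exact dvd_pow_self q hk0
  have hpq : p ≠ q := by
    rintro rfl
    have h1 := Nat.Coprime.eq_one_of_dvd hVc.symm hqV
    exact hq.one_lt.ne' h1
  have hcast : ∀ r : ℕ, r.Prime → r ≠ q → (r : ZMod q) ≠ 0 := by
    intro r hr hrq h0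
    rw [ZMod.natCast_eq_zero_iff] at h0
    exact hrq ((Nat.prime_dvd_prime_iff_eq hq hr).mp h0).symm
  have hsQ : s ∈ Subgroup.normalizer (Q : Set (MulAut V)) := mem_normalizer_of_conj_mem hQs
  let θ : MulAut Q := Q.normalizerMonoidHom ⟨s, hsQ⟩
  have hθ : ∀ g : Q, ((θ g : Q) : MulAut V) = s * g.1 * s⁻¹ := fun g => rfl
  have hθN : θ ^ p ^ (n + 1) = 1 := by
    have h1 : (⟨s, hsQ⟩ : Subgroup.normalizer (Q : Set (MulAut V))) ^ p ^ (n + 1) = 1 := Subtype.ext hs
    change (Q.normalizerMonoidHom ⟨s, hsQ⟩) ^ p ^ (n + 1) = 1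
    rw [← map_pow, h1, map_one]
  have hθfix : ∀ g : Q, θ g = g → g = 1 := by
    intro g hg
    apply Subtype.ext
    exact hQf g.1 g.2 (congrArg Subtype.val hg)
  have hQc : (Nat.card Q).Coprime p := coprime_card_of_fpf θ hθN hθfix
  -- `O_q(Q) = 1`
  have hcore : pCore q Q = ⊥ := by
    let P : Subgroup Q := pCore q Q
    have hPp : IsPGroup q P := pCore_isPGroup
    let φ : P →* MulAut V := Q.subtype.comp P.subtype
    letI : MulAction P V := MulAction.compHom V φ
    have hsmul : ∀ (u : P) (v : V), u • v = u.1.1 v := fun u v => rfl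
    have h1 := hPp.card_modEq_card_fixedPoints V
    have hfixne : Nat.card (MulAction.fixedPoints P V) ≠ 1 := by
      intro h2
      rw [h2] at h1
      have h3 : Nat.card V ≡ 0 [MOD q] := (Nat.modEq_zero_iff_dvd).mpr hqV
      have h4 : 0 ≡ 1 [MOD q] := h3.symm.trans h1
      have h5 := (Nat.modEq_zero_iff_dvd).mp h4.symm
      exact hq.one_lt.ne' (Nat.dvd_one.mp h5)
    have hex : ∃ v : V, v ≠ 1 ∧ ∀ u : P, u.1.1 v = v := by
      by_contra hall
      push Not at hall
      apply hfixne
      rw [Nat.card_eq_one_iff_unique]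
      refine ⟨⟨fun a b => Subtype.ext ?_⟩, ⟨⟨1, fun u => map_one u.1.1⟩⟩⟩
      have key : ∀ v : MulAction.fixedPoints P V, v.1 = 1 := by
        intro v
        by_contra hv
        obtain ⟨u, hu⟩ := hall v.1 hv
        exact hu (v.2 u)
      rw [key a, key b]
    obtain ⟨v₀, hv₀, hv₀fix⟩ := hex
    let W : Subgroup V :=
      { carrier := {v | ∀ u : P, u.1.1 v = v}
        mul_mem' := by
          intro a b ha hb u
          rw [map_mul, ha u, hb u]
        one_mem' := fun u => map_one u.1.1
        inv_mem' := by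
          intro a ha u
          rw [map_inv, ha u] }
    have hWne : W ≠ ⊥ := by
      intro h
      have h1 : v₀ ∈ W := hv₀fix
      rw [h, Subgroup.mem_bot] at h1
      exact hv₀ h1
    have hPn : P.Normal := inferInstanceAs (pCore q Q).Normal
    have hPc : P.Characteristic := inferInstanceAs (pCore q Q).Characteristic
    have hWtop := hirr W hWne (by
      intro t ht w hw u
      have h2 : (⟨t, ht⟩ : Q)⁻¹ * u.1 * ⟨t, ht⟩ ∈ P := by
        have := hPn.conj_mem u.1 u.2 (⟨t, ht⟩ : Q)⁻¹
        simpa using this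
      have h3 := hw ⟨_, h2⟩
      have h4 : ((⟨t, ht⟩ : Q)⁻¹ * u.1 * ⟨t, ht⟩ : Q).1 = t⁻¹ * u.1.1 * t := rfl
      simp only [h4, MulAut.mul_apply] at h3
      have h5 := congrArg t h3
      simpa using h5) (by
      intro w hw u
      have h2 : θ.symm u.1 ∈ P := by
        have h6 := hPc.fixed θ
        have h7 : θ.symm u.1 ∈ P.comap θ.toMonoidHom := by
          change θ (θ.symm u.1) ∈ P
          rw [θ.apply_symm_apply]
          exact u.2
        rwa [h6] at h7
      have h3 := hw ⟨_, h2⟩
      have h4 : ∃ t : Q, t = θ.symm u.1 := ⟨_, rfl⟩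
      obtain ⟨t, ht⟩ := h4
      have h5 : θ t = u.1 := by
        rw [ht]
        exact θ.apply_symm_apply _
      have h6 : ((u.1 : Q) : MulAut V) = s * t.1 * s⁻¹ := by
        rw [← h5]
        exact hθ t
      have h8 : t.1 w = w := by
        rw [ht]
        exact h3
      rw [h6, MulAut.mul_apply, MulAut.mul_apply, MulAut.inv_apply_self, h8])
    rw [eq_bot_iff]
    intro u hu
    rw [Subgroup.mem_bot]
    apply Subtype.ext
    apply MulEquiv.ext
    intro v
    have h2 : v ∈ W := by
      rw [hWtop]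
      trivial
    exact h2 ⟨u, hu⟩
  haveI := hQsol
  have hPS : IsPSolvable q Q := Cfsg.Agent.Lib.Core.PSolvable2.isPSolvable_of_isSolvable
  have hcent := Cfsg.Agent.Lib.HallHigman.Reduction.centralizer_pPrimeCore_le_of_isPSolvable hPS hcore
  -- the module
  let act : MulAut V →* Monoid.End V :=
    { toFun := fun α => (α.toMonoidHom : V →* V)
      map_one' := rfl
      map_mul' := fun _ _ => rfl }
  obtain ⟨W, i1, i2, i3, ρ, ι, hadd, hbij, hact⟩ :=
    Cfsg.Agent.Lib.HallHigman.Section.exists_module_of_commGroup (p := q) hVq act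
  have hι1 : ι 1 = 0 := by
    have := hadd 1 1
    rw [mul_one] at this
    simpa using this
  have hρι : ∀ (t : MulAut V) (v : V), ρ t (ι v) = ι (t v) := fun t v => hact t v
  have hfaith : ∀ t : MulAut V, ρ t = 1 → t = 1 := by
    intro t ht
    apply MulEquiv.ext
    intro v
    apply hbij.1
    rw [← hρι, ht]
    rfl
  have hfree : ∀ w, ρ s w = w → w = 0 := by
    intro w hw
    obtain ⟨v, rfl⟩ := hbij.2 w
    rw [hρι] at hw
    rw [hfix v (hbij.1 hw), hι1]
  -- the `q'`-core
  let L : Subgroup Q := pPrimeCore q Q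
  let L' : Subgroup (MulAut V) := L.map Q.subtype
  have hLn : L.Normal := inferInstanceAs (pPrimeCore q Q).Normal
  have hLc : L.Characteristic := inferInstanceAs (pPrimeCore q Q).Characteristic
  have hL'Q : L' ≤ Q := by
    rintro _ ⟨g, -, rfl⟩
    exact g.2
  have hL'card : Nat.card L' = Nat.card L := by
    exact Nat.card_congr (Subgroup.equivMapOfInjective L Q.subtype Q.subtype_injective).toEquiv.symm
  have hL'q : (Nat.card L').Coprime q := by
    rw [hL'card]
    exact pPrimeCore_coprime
  have hL'p : (Nat.card L').Coprime p :=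
    Nat.Coprime.coprime_dvd_left (Subgroup.card_dvd_of_le hL'Q) hQc
  have hsL' : s ∈ Subgroup.normalizer (L' : Set (MulAut V)) := by
    apply mem_normalizer_of_conj_mem
    rintro _ ⟨g, hg, rfl⟩
    have h1 : θ g ∈ L := by
      have h2 := hLc.fixed θ
      have h3 : g ∈ L.comap θ.toMonoidHom := by
        rw [h2]
        exact hg
      exact h3
    exact ⟨θ g, h1, rfl⟩
  let A := Subgroup.zpowers s
  let Y := Subgroup.zpowers (s ^ p ^ n)
  have hAL' : A ≤ Subgroup.normalizer (L' : Set (MulAut V)) := Subgroup.zpowers_le.mpr hsL'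
  have hcopA : (Nat.card A).Coprime (Nat.card L') := by
    rw [Nat.card_zpowers, hord]
    exact Nat.Coprime.pow_left _ hL'p.symm
  have hsolA : Group.IsSolvable A := by
    infer_instance
  have hLY : L' ≤ Subgroup.centralizer (Y : Set (MulAut V)) := by
    let C := L' ⊓ Subgroup.centralizer (Y : Set (MulAut V))
    have hCR : C.relIndex L' = 1 := by
      by_contra hne
      obtain ⟨r, hr, hqd⟩ := Nat.exists_prime_and_dvd hne
      haveI hr' : Fact r.Prime := ⟨hr⟩
      obtain ⟨S, hS, hAS⟩ := exists_invariant_sylowIn (p := r) hAL' hcopA (Or.inl hsolA)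
      have hSc : S ≤ Subgroup.centralizer (Y : Set (MulAut V)) := by
        have hSbot : ∀ z : ℕ, z.Prime → (Nat.card L').Coprime z → r = z → S = ⊥ := by
          intro z hz hcop hrz
          subst hrz
          obtain ⟨k, hk⟩ := IsPGroup.iff_card.mp hS.2.1
          have h1 : Nat.card S ∣ Nat.card L' := Subgroup.card_dvd_of_le hS.1
          have h2 : (Nat.card S).Coprime r := Nat.Coprime.coprime_dvd_left h1 hcop
          rw [hk] at h2
          have h3 : k = 0 := by
            by_contra hk0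
            have h4 := Nat.Coprime.eq_one_of_dvd (Nat.Coprime.symm h2) (dvd_pow_self r hk0)
            exact hz.one_lt.ne' h4
          rw [h3, pow_zero] at hk
          exact Subgroup.card_eq_one.mp hk
        by_cases hrq : r = q
        · rw [hSbot q hq hL'q hrq]
          exact bot_le
        by_cases hrp : r = p
        · rw [hSbot p hp hL'p hrp]
          exact bot_le
        exact le_centralizer_of_free (F := ZMod q) hp2 (hcast p hp hpq) (hcast r hr hrq) (Ne.symm hrp) ρ S hS.2.1
          s n hord (hAS (Subgroup.mem_zpowers s)) (fun g _ => hfaith g) hfree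
          (fun g hg => hQf g (hL'Q (hS.1 hg)))
      have hSC : S ≤ C := le_inf hS.1 hSc
      exact hS.2.2 (hqd.trans (Subgroup.relIndex_dvd_of_le_left L' hSC))
    have h1 := Subgroup.relIndex_eq_one.mp hCR
    exact h1.trans inf_le_right
  have hxL : ∀ l ∈ L', s ^ p ^ n * l = l * s ^ p ^ n := by
    intro l hl
    exact Subgroup.mem_centralizer_iff.mp (hLY hl) _ (Subgroup.mem_zpowers _)
  -- conclusion
  obtain ⟨x, hxdef⟩ : ∃ x, x = s ^ p ^ n := ⟨_, rfl⟩
  rw [← hxdef] at hxL ⊢
  have hxp : x ^ p = 1 := by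
    rw [hxdef, ← pow_mul, ← pow_succ]
    exact hs
  have hxQ : ∀ t ∈ Q, x * t * x⁻¹ ∈ Q := by
    intro t ht
    have h1 : x ∈ Subgroup.normalizer (Q : Set (MulAut V)) := by
      rw [hxdef]
      exact Subgroup.pow_mem _ hsQ _
    exact (Subgroup.mem_normalizer_iff.mp h1 t).mp ht
  intro t ht
  obtain ⟨k, hk⟩ : ∃ k, k = t⁻¹ * (x * t * x⁻¹) := ⟨_, rfl⟩
  have hkQ : k ∈ Q := by
    rw [hk]
    exact Q.mul_mem (Q.inv_mem ht) (hxQ t ht)
  -- `k` centralizes `L'`
  have hkL : k ∈ L' := by
    have h1 : (⟨k, hkQ⟩ : Q) ∈ Subgroup.centralizer (L : Set Q) := by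
      rw [Subgroup.mem_centralizer_iff]
      intro l hl
      apply Subtype.ext
      change l.1 * k = k * l.1
      have h2 : (⟨t, ht⟩ : Q) * l * (⟨t, ht⟩ : Q)⁻¹ ∈ L := hLn.conj_mem l hl _
      have h3 : t * l.1 * t⁻¹ ∈ L' := ⟨_, h2, rfl⟩
      have h4 := hxL _ h3
      have h5 := hxL _ (⟨l, hl, rfl⟩ : l.1 ∈ L')
      -- `x t l t⁻¹ x⁻¹ = t l t⁻¹`, `x l x⁻¹ = l`
      have h6 : x * t * x⁻¹ * l.1 = t * l.1 * t⁻¹ * (x * t * x⁻¹) := by
        calc x * t * x⁻¹ * l.1 = x * t * (x⁻¹ * l.1) := by group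
          _ = x * t * (l.1 * x⁻¹) := by
            congr 1
            have : x⁻¹ * l.1 = l.1 * x⁻¹ := by
              rw [inv_mul_eq_iff_eq_mul, ← mul_assoc, h5, mul_assoc, mul_inv_cancel, mul_one]
            exact this
          _ = x * (t * l.1 * t⁻¹) * t * x⁻¹ := by group
          _ = (t * l.1 * t⁻¹) * x * t * x⁻¹ := by rw [h4]
          _ = _ := by group
      rw [hk]
      calc l.1 * (t⁻¹ * (x * t * x⁻¹)) = t⁻¹ * ((t * l.1 * t⁻¹) * (x * t * x⁻¹)) := by group
        _ = t⁻¹ * (x * t * x⁻¹ * l.1) := by rw [h6]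
        _ = _ := by group
    have h2 := hcent h1
    exact ⟨_, h2, rfl⟩
  have hxk : x * k = k * x := hxL k hkL
  have hxt : x * t = t * k * x := by
    rw [hk]
    group
  have hit : ∀ i : ℕ, x ^ i * t = t * k ^ i * x ^ i := by
    intro i
    induction i with
    | zero => simp
    | succ i ih =>
      have hcomm : x * k ^ i = k ^ i * x := ((Commute.pow_right (show Commute x k from hxk) i)).eq
      calc x ^ (i + 1) * t = x * (x ^ i * t) := by rw [pow_succ']; group
        _ = x * (t * k ^ i * x ^ i) := by rw [ih]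
        _ = (x * t) * k ^ i * x ^ i := by group
        _ = t * k * x * k ^ i * x ^ i := by rw [hxt]
        _ = t * k * (x * k ^ i) * x ^ i := by group
        _ = t * k * (k ^ i * x) * x ^ i := by rw [hcomm]
        _ = t * k ^ (i + 1) * x ^ (i + 1) := by
          rw [pow_succ' k, pow_succ' x]
          group
  have h3 := hit p
  rw [hxp, one_mul, mul_one] at h3
  have h4 : k ^ p = 1 := by
    have := mul_left_cancel (a := t) (b := k ^ p) (c := 1) (by rw [mul_one]; exact h3.symm)
    exact this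
  have h5 : k ^ Nat.card Q = 1 := by
    have := pow_card_eq_one' (x := (⟨k, hkQ⟩ : Q))
    exact congrArg Subtype.val this
  have h6 : k ^ Nat.gcd p (Nat.card Q) = 1 := pow_gcd_eq_one.mpr ⟨h4, h5⟩
  have h7 : Nat.gcd p (Nat.card Q) = 1 := hQc.symm
  rw [h7, pow_one] at h6
  rw [hxt, h6]
  simp

/-- The action on a minimal invariant normal abelian subgroup. -/
theorem step {G : Type u} [Group G] [Finite G] (hG : Group.IsSolvable G) {p q : ℕ} (hp : p.Prime) (hp2 : p ≠ 2)
    (hq : q.Prime) (n : ℕ) (σ : MulAut G) (hσ : σ ^ p ^ (n + 1) = 1) (hfpf : ∀ g : G, σ g = g → g = 1)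
    (N : Subgroup G) (hN0 : N ≠ ⊥) [hNn : N.Normal] (hNσ : ∀ x ∈ N, σ x ∈ N)
    (hNc : ∀ x ∈ N, ∀ y ∈ N, x * y = y * x) (hNq : ∀ x ∈ N, x ^ q = 1)
    (hmin : ∀ M : Subgroup G, M ≤ N → M ≠ ⊥ → M.Normal → (∀ x ∈ M, σ x ∈ M) → M = N) (g : G) (v : N) :
    (g⁻¹ * (σ ^ p ^ n) g) * v = v * (g⁻¹ * (σ ^ p ^ n) g) := by
  classical
  haveI hnt : Nontrivial N := (Subgroup.nontrivial_iff_ne_bot N).2 hN0
  letI cgN : CommGroup N := { (inferInstance : Group N) with mul_comm := fun a b => Subtype.ext (hNc a a.2 b b.2) }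
  -- restriction of `σ`
  let s₀ : N →* N := (σ.toMonoidHom.comp N.subtype).codRestrict N (fun x => hNσ x x.2)
  have hs₀inj : Function.Injective s₀ := by
    intro x y hxy
    exact Subtype.ext (σ.injective (congrArg Subtype.val hxy))
  let s : MulAut N := MulEquiv.ofBijective s₀ ⟨hs₀inj, Finite.injective_iff_surjective.1 hs₀inj⟩
  have hsv : ∀ x : N, ((s x : N) : G) = σ x := fun x => rfl
  have hspow : ∀ (k : ℕ) (x : N), (((s ^ k) x : N) : G) = (σ ^ k) x := by
    intro k
    induction k with
    | zero => intro x; rfl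
    | succ k ih =>
      intro x
      rw [pow_succ, pow_succ, MulAut.mul_apply, MulAut.mul_apply, ih, hsv]
  have hsN : s ^ p ^ (n + 1) = 1 := by
    apply MulEquiv.ext
    intro x
    apply Subtype.ext
    rw [hspow, hσ]
    rfl
  have hsfix : ∀ v : N, s v = v → v = 1 := by
    intro v hv
    apply Subtype.ext
    exact hfpf v (congrArg Subtype.val hv)
  -- the action
  let ρ : G →* MulAut N := MulAut.conjNormal
  have hρ : ∀ (g : G) (x : N), ((ρ g x : N) : G) = g * x * g⁻¹ := fun g x => MulAut.conjNormal_apply g x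
  have hQsol : Group.IsSolvable ρ.range := Group.isSolvable_of_surjective ρ.rangeRestrict_surjective
  have hconj : ∀ g : G, s * ρ g * s⁻¹ = ρ (σ g) := by
    intro g
    apply MulEquiv.ext
    intro x
    apply Subtype.ext
    obtain ⟨y, rfl⟩ := s.surjective x
    simp only [MulAut.mul_apply, MulAut.inv_apply_self]
    rw [hsv, hρ, hρ, hsv, map_mul, map_mul, map_inv]
  have hker : ∀ g : G, g ∈ ρ.ker ↔ ∀ x : N, g * x * g⁻¹ = x := by
    intro g
    rw [MonoidHom.mem_ker]
    constructor
    · intro h x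
      rw [← hρ, h]
      rfl
    · intro h
      apply MulEquiv.ext
      intro x
      apply Subtype.ext
      rw [hρ, h]
      rfl
  have hab := comm_of_irreducible hq hp hp2 (fun a : N => Subtype.ext (hNq a.1 a.2)) n s hsN hsfix ρ.range hQsol
    (by
      rintro _ ⟨g, rfl⟩
      exact ⟨σ g, (hconj g).symm⟩)
    (by
      rintro _ ⟨g, rfl⟩ h
      rw [hconj] at h
      have h1 : g⁻¹ * σ g ∈ ρ.ker := by
        rw [MonoidHom.mem_ker, map_mul, map_inv, h, inv_mul_cancel]
      have h2 := Cfsg.Agent.Lib.SigmaFour.Main.mem_of_inv_mul_mem σ hfpf ρ.ker (by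
        intro x hx
        rw [MonoidHom.mem_ker] at hx ⊢
        have h3 := hconj x
        rw [hx] at h3
        rw [← h3]
        simp) g h1
      exact h2)
    (by
      intro W hW0 hWQ hWs
      let M : Subgroup G := W.map N.subtype
      have hM : M = N := by
        apply hmin M
        · rintro _ ⟨x, -, rfl⟩
          exact x.2
        · intro h
          apply hW0
          rw [eq_bot_iff]
          intro x hx
          have h1 : (x : G) ∈ M := ⟨x, hx, rfl⟩
          rw [h, Subgroup.mem_bot] at h1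
          exact (Subgroup.mem_bot).2 (Subtype.ext h1)
        · refine ⟨?_⟩
          rintro _ ⟨x, hx, rfl⟩ g
          exact ⟨ρ g x, hWQ _ ⟨g, rfl⟩ x hx, hρ g x⟩
        · rintro _ ⟨x, hx, rfl⟩
          exact ⟨s x, hWs x hx, hsv x⟩
      rw [eq_top_iff]
      intro x _
      have h1 : (x : G) ∈ M := by rw [hM]; exact x.2
      obtain ⟨y, hy, hyx⟩ := h1
      have : y = x := Subtype.ext hyx
      rw [← this]
      exact hy)
  have hconjpow : ∀ (k : ℕ) (g : G), s ^ k * ρ g * (s ^ k)⁻¹ = ρ ((σ ^ k) g) := by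
    intro k
    induction k with
    | zero => intro g; simp
    | succ k ih =>
      intro g
      have h0 : (σ ^ (k + 1)) g = σ ((σ ^ k) g) := by
        rw [pow_succ', MulAut.mul_apply]
      rw [h0, ← hconj, ← ih, pow_succ' s k]
      group
  have h1 := hab (ρ g) ⟨g, rfl⟩
  have h2 : ρ ((σ ^ p ^ n) g) = ρ g := by
    rw [← hconjpow, h1]
    group
  have h3 : g⁻¹ * (σ ^ p ^ n) g ∈ ρ.ker := by
    rw [MonoidHom.mem_ker, map_mul, map_inv, h2, inv_mul_cancel]
  have h4 := (hker _).1 h3 v
  rw [mul_inv_eq_iff_eq_mul] at h4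
  exact h4

/-- The chain step: a normal, `σ`-invariant nilpotent subgroup `K` with `g⁻¹ σ^{p^n}(g) ∈ K`. -/
theorem exists_K {p : ℕ} (hp : p.Prime) (hp2 : p ≠ 2) (n : ℕ) {G : Type u} [Group G] [Finite G]
    (hG : Group.IsSolvable G) (σ : MulAut G) (hσ : σ ^ p ^ (n + 1) = 1) (hfpf : ∀ g : G, σ g = g → g = 1) :
    ∃ K : Subgroup G, K.Normal ∧ (∀ x ∈ K, σ x ∈ K) ∧ Group.IsNilpotent K ∧ ∀ g : G, g⁻¹ * (σ ^ p ^ n) g ∈ K := by
  induction hm : Nat.card G using Nat.strong_induction_on generalizing G with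
  | _ m ih =>
    subst hm
    by_cases hnt : Nontrivial G
    swap
    · haveI : Subsingleton G := not_nontrivial_iff_subsingleton.1 hnt
      refine ⟨⊤, inferInstance, fun _ _ => Subgroup.mem_top _, ?_, fun _ => Subgroup.mem_top _⟩
      infer_instance
    obtain ⟨N, q, hN0, hq, hNinv, hNc, hNp, hNmin⟩ :=
      Cfsg.Agent.Lib.SigmaFour.Main.exists_min_inv hG (Set.range (MulAut.conj (G := G)) ∪ {σ})
    haveI hNn : N.Normal := ⟨fun x hx g => hNinv _ (Or.inl ⟨g, rfl⟩) x hx⟩
    have hNσ : ∀ x ∈ N, σ x ∈ N := fun x hx => hNinv _ (Or.inr rfl) x hx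
    have hNmin' : ∀ M : Subgroup G, M ≤ N → M ≠ ⊥ → M.Normal → (∀ x ∈ M, σ x ∈ M) → M = N := by
      intro M hMN hM0 hMn hMσ
      apply hNmin M hMN hM0
      rintro α (⟨g, rfl⟩ | rfl) x hx
      · exact hMn.conj_mem x hx g
      · exact hMσ x hx
    -- `N` has exponent `q`
    have hNq : ∀ x ∈ N, x ^ q = 1 := by
      classical
      let M : Subgroup G :=
        { carrier := {x | x ∈ N ∧ x ^ q = 1}
          one_mem' := ⟨N.one_mem, one_pow _⟩
          mul_mem' := by
            rintro a b ⟨ha, ha'⟩ ⟨hb, hb'⟩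
            refine ⟨N.mul_mem ha hb, ?_⟩
            rw [(show Commute a b from hNc a ha b hb).mul_pow, ha', hb', one_mul]
          inv_mem' := by
            rintro a ⟨ha, ha'⟩
            exact ⟨N.inv_mem ha, by rw [inv_pow, ha', inv_one]⟩ }
      have hMN : M ≤ N := fun x hx => hx.1
      have hM0 : M ≠ ⊥ := by
        haveI : Fact q.Prime := ⟨hq⟩
        haveI : Nontrivial N := (Subgroup.nontrivial_iff_ne_bot N).2 hN0
        have hd : q ∣ Nat.card N := by
          obtain ⟨k, hk⟩ := IsPGroup.iff_card.1 hNp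
          rw [hk]
          have hk0 : k ≠ 0 := by
            rintro rfl
            have h1 : Nat.card N = 1 := by simpa using hk
            have := Finite.one_lt_card (α := N)
            omega
          exact dvd_pow_self q hk0
        obtain ⟨x, hx⟩ := exists_prime_orderOf_dvd_card' (G := N) q hd
        intro h
        have h1 : (x : G) ∈ M := by
          refine ⟨x.2, ?_⟩
          have := pow_orderOf_eq_one x
          rw [hx] at this
          exact congrArg Subtype.val this
        rw [h, Subgroup.mem_bot] at h1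
        have h2 : x = 1 := Subtype.ext h1
        rw [h2, orderOf_one] at hx
        exact hq.one_lt.ne hx
      have hMeq : M = N := by
        apply hNmin' M hMN hM0
        · refine ⟨?_⟩
          rintro x ⟨hx, hx'⟩ g
          refine ⟨hNn.conj_mem x hx g, ?_⟩
          rw [conj_pow, hx', mul_one, mul_inv_cancel]
        · rintro x ⟨hx, hx'⟩
          refine ⟨hNσ x hx, ?_⟩
          rw [← map_pow, hx', map_one]
      intro x hx
      rw [← hMeq] at hx
      exact hx.2
    have hstep := step hG hp hp2 hq n σ hσ hfpf N hN0 hNσ hNc hNq hNmin'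
    have hmap : N.map (σ : G →* G) = N := by
      apply Subgroup.eq_of_le_of_card_ge
      · rintro _ ⟨x, hx, rfl⟩
        exact hNσ x hx
      · exact le_of_eq (Nat.card_congr (σ.subgroupMap N).toEquiv)
    let σq : MulAut (G ⧸ N) := QuotientGroup.congr N N σ hmap
    have hσq : ∀ x : G, σq (x : G ⧸ N) = ((σ x : G) : G ⧸ N) := fun x => rfl
    have hσqpow : ∀ (k : ℕ) (x : G), (σq ^ k) (x : G ⧸ N) = (((σ ^ k) x : G) : G ⧸ N) := by
      intro k
      induction k with
      | zero => intro x; rfl
      | succ k ih' =>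
        intro x
        rw [pow_succ, pow_succ, MulAut.mul_apply, MulAut.mul_apply, hσq, ih']
    have hσqN : σq ^ p ^ (n + 1) = 1 := by
      apply MulEquiv.ext
      intro y
      induction y using QuotientGroup.induction_on with
      | H x =>
        rw [hσqpow, hσ]
        rfl
    have hσqfix : ∀ y : G ⧸ N, σq y = y → y = 1 := by
      intro y
      induction y using QuotientGroup.induction_on with
      | H x =>
        intro hx
        rw [hσq, eq_comm, QuotientGroup.eq] at hx
        have := Cfsg.Agent.Lib.SigmaFour.Main.mem_of_inv_mul_mem σ hfpf N hNσ x hx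
        exact (QuotientGroup.eq_one_iff x).2 this
    have hsol : Group.IsSolvable (G ⧸ N) := inferInstance
    have hcard : Nat.card (G ⧸ N) < Nat.card G := by
      have h1 := N.card_mul_index
      have h2 : 1 < Nat.card N := by
        haveI : Nontrivial N := (Subgroup.nontrivial_iff_ne_bot N).2 hN0
        exact Finite.one_lt_card
      have h3 : 0 < N.index := Nat.pos_of_ne_zero Subgroup.index_ne_zero_of_finite
      rw [Subgroup.index_eq_card] at h1 h3
      nlinarith
    obtain ⟨L, hLn, hLσ, hLnil, hL⟩ := ih _ hcard hsol σq hσqN hσqfix rfl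
    -- the subgroup `K`
    have hNinvσ : ∀ x ∈ N, σ⁻¹ x ∈ N := by
      intro x hx
      rw [← hmap] at hx
      obtain ⟨y, hy, rfl⟩ := hx
      have : σ⁻¹ (σ y) = y := by simp
      change σ⁻¹ (σ y) ∈ N
      rw [this]
      exact hy
    refine ⟨L.comap (QuotientGroup.mk' N) ⊓ Subgroup.centralizer (N : Set G), ?_, ?_, ?_, ?_⟩
    · haveI : (L.comap (QuotientGroup.mk' N)).Normal := inferInstance
      haveI : (Subgroup.centralizer (N : Set G)).Normal := Subgroup.normal_centralizer
      infer_instance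
    · rintro x ⟨hx1, hx2⟩
      refine ⟨?_, ?_⟩
      · have h1 : ((x : G) : G ⧸ N) ∈ L := hx1
        have h2 := hLσ _ h1
        rw [hσq] at h2
        exact h2
      · change x ∈ Subgroup.centralizer (N : Set G) at hx2
        change σ x ∈ Subgroup.centralizer (N : Set G)
        rw [Subgroup.mem_centralizer_iff] at hx2 ⊢
        intro v hv
        have h1 := hx2 (σ⁻¹ v) (hNinvσ v hv)
        have h2 := congrArg σ h1
        simpa using h2
    · haveI := hLnil
      have hm : ∀ x : ↥(L.comap (QuotientGroup.mk' N) ⊓ Subgroup.centralizer (N : Set G)),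
          (QuotientGroup.mk' N) (x : G) ∈ L := fun x => x.2.1
      let f : ↥(L.comap (QuotientGroup.mk' N) ⊓ Subgroup.centralizer (N : Set G)) →* L :=
        ((QuotientGroup.mk' N).comp (Subgroup.subtype _)).codRestrict _ (fun x => hm x)
      refine Subgroup.isNilpotent_of_ker_le_center f ?_
      intro x hx
      have hxN : (x : G) ∈ N := by
        rw [MonoidHom.mem_ker] at hx
        exact (QuotientGroup.eq_one_iff _).1 (congrArg Subtype.val hx)
      rw [Subgroup.mem_center_iff]
      intro y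
      apply Subtype.ext
      exact (Subgroup.mem_centralizer_iff.1 y.2.2) x hxN |>.symm
    · intro g
      refine ⟨?_, ?_⟩
      · have h1 := hL (g : G ⧸ N)
        rw [hσqpow] at h1
        exact h1
      · change g⁻¹ * (σ ^ p ^ n) g ∈ Subgroup.centralizer (N : Set G)
        rw [Subgroup.mem_centralizer_iff]
        intro v hv
        exact (hstep g ⟨v, hv⟩).symm

/-- Lower central series under pull-back. -/
lemma lcs_comap_le {G H : Type*} [Group G] [Group H] (f : G →* H) (X : Subgroup H) (k : ℕ) :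
    (X.comap f).lowerCentralSeries k ≤ (X.lowerCentralSeries k).comap f := by
  induction k with
  | zero => exact le_of_eq rfl
  | succ k ih =>
    rw [Subgroup.lowerCentralSeries_succ, Subgroup.commutator_le]
    intro a ha b hb
    rw [Subgroup.mem_comap, map_commutatorElement, Subgroup.lowerCentralSeries_succ]
    exact Subgroup.commutator_mem_commutator (ih ha) hb

/-- **Shult–Gross.** -/
theorem main {p : ℕ} (hp : p.Prime) (hp2 : p ≠ 2) (n : ℕ) : ∀ {G : Type u} [Group G] [Finite G]
    (_ : Group.IsSolvable G) (σ : MulAut G) (_ : σ ^ p ^ n = 1) (_ : ∀ g : G, σ g = g → g = 1),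
    ∃ F : Fin (n + 1) → Subgroup G, F 0 = ⊥ ∧ F (Fin.last n) = ⊤ ∧ Monotone F ∧ (∀ i, (F i).Normal) ∧
      ∀ i : Fin n, ∃ k : ℕ, (F i.succ).lowerCentralSeries k ≤ F i.castSucc := by
  induction n with
  | zero =>
    intro G _ _ hG σ hσ hfpf
    have hsub : Subsingleton G := by
      refine ⟨fun a b => ?_⟩
      have h1 : σ = 1 := by simpa using hσ
      rw [hfpf a (by rw [h1]; rfl), hfpf b (by rw [h1]; rfl)]
    refine ⟨fun _ => ⊥, rfl, ?_, fun _ _ _ => le_rfl, fun _ => inferInstance, fun i => i.elim0⟩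
    exact Subsingleton.elim _ _
  | succ n ih =>
    intro G _ _ hG σ hσ hfpf
    obtain ⟨K, hKn, hKσ, hKnil, hK⟩ := exists_K hp hp2 n hG σ hσ hfpf
    have hmap : K.map (σ : G →* G) = K := by
      apply Subgroup.eq_of_le_of_card_ge
      · rintro _ ⟨x, hx, rfl⟩
        exact hKσ x hx
      · exact le_of_eq (Nat.card_congr (σ.subgroupMap K).toEquiv)
    let σq : MulAut (G ⧸ K) := QuotientGroup.congr K K σ hmap
    have hσq : ∀ x : G, σq (x : G ⧸ K) = ((σ x : G) : G ⧸ K) := fun x => rfl
    have hσqpow : ∀ (k : ℕ) (x : G), (σq ^ k) (x : G ⧸ K) = (((σ ^ k) x : G) : G ⧸ K) := by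
      intro k
      induction k with
      | zero => intro x; rfl
      | succ k ih' =>
        intro x
        rw [pow_succ, pow_succ, MulAut.mul_apply, MulAut.mul_apply, hσq, ih']
    have hσqN : σq ^ p ^ n = 1 := by
      apply MulEquiv.ext
      intro y
      induction y using QuotientGroup.induction_on with
      | H x =>
        rw [hσqpow]
        change ((( σ ^ p ^ n) x : G) : G ⧸ K) = (x : G ⧸ K)
        rw [eq_comm, QuotientGroup.eq]
        exact hK x
    have hσqfix : ∀ y : G ⧸ K, σq y = y → y = 1 := by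
      intro y
      induction y using QuotientGroup.induction_on with
      | H x =>
        intro hx
        rw [hσq, eq_comm, QuotientGroup.eq] at hx
        have := Cfsg.Agent.Lib.SigmaFour.Main.mem_of_inv_mul_mem σ hfpf K hKσ x hx
        exact (QuotientGroup.eq_one_iff x).2 this
    obtain ⟨F, hF0, hFl, hFm, hFn, hFs⟩ := ih (G := G ⧸ K) inferInstance σq hσqN hσqfix
    let F' : Fin (n + 1 + 1) → Subgroup G := Fin.cases ⊥ (fun i => (F i).comap (QuotientGroup.mk' K))
    have hF'0 : F' 0 = ⊥ := rfl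
    have hF's : ∀ j, F' (Fin.succ j) = (F j).comap (QuotientGroup.mk' K) := fun _ => rfl
    refine ⟨F', rfl, ?_, ?_, ?_, ?_⟩
    · rw [← Fin.succ_last, hF's, hFl]
      exact Subgroup.comap_top _
    · rw [Fin.monotone_iff_le_succ]
      intro i
      refine Fin.cases ?_ (fun j => ?_) i
      · exact bot_le
      · rw [← Fin.succ_castSucc, hF's, hF's]
        exact Subgroup.comap_mono (hFm (Fin.castSucc_le_succ j))
    · intro i
      refine Fin.cases ?_ (fun j => ?_) i
      · rw [hF'0]
        infer_instance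
      · rw [hF's]
        haveI := hFn j
        infer_instance
    · intro i
      refine Fin.cases ?_ (fun j => ?_) i
      · -- the first factor is `K`
        obtain ⟨k, hk⟩ := (Subgroup.isNilpotent_iff_lowerCentralSeries K).1 hKnil
        refine ⟨k, ?_⟩
        have h1 : (F 0).comap (QuotientGroup.mk' K) = K := by
          rw [hF0]
          ext x
          rw [Subgroup.mem_comap, Subgroup.mem_bot]
          exact QuotientGroup.eq_one_iff x
        have h2 : F' (Fin.succ 0) = K := by rw [hF's, h1]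
        have h3 : F' (Fin.castSucc 0) = ⊥ := rfl
        rw [h2, h3, hk]
      · obtain ⟨k, hk⟩ := hFs j
        refine ⟨k, ?_⟩
        rw [hF's, ← Fin.succ_castSucc, hF's]
        exact (lcs_comap_le _ _ k).trans (Subgroup.comap_mono hk)

end Cfsg.Agent.Lib.ShultGross.Main
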